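/-
The order of an absolutely irreducible group of symplectic type: for odd `r` and exponent `r` and for `r = 2`,
commutators are scalars, and `|R| = |Z(R)| · n²`.
-/
import Cfsg.Agent.Lib.PGroups.Hall
import Cfsg.Agent.Lib.CmaxS.Proper2

set_option autoImplicit false
set_option linter.style.haveILetI false

namespace Cfsg.Agent.Lib.CmaxU.Card

open Matrix Module Cfsg Cfsg.Geo
open scoped commutatorElement MatrixGroups

universe u

/-- Groups of symplectic type and prime exponent have central commutators. -/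
theorem comm_mem_center {G : Type*} [Group G] [Finite G] {p : ℕ} [Fact p.Prime] (hp2 : p ≠ 2)
    (hG : IsPGroup p G) (hc : ∀ A : Subgroup G, A.Characteristic → IsMulCommutative A → IsCyclic A)
    (hexp : ∀ x : G, x ^ p = 1) (x y : G) : ⁅x, y⁆ ∈ Subgroup.center G := by
  classical
  obtain ⟨E, R, hER, hsup, hE, hR⟩ := Cfsg.Agent.Lib.PGroups.Hall.hall hG hc
  have hRc : IsCyclic R := by
    rcases hR with h | h
    · exact h
    · exact absurd h.1 hp2
  have hRcomm : ∀ a ∈ R, ∀ b ∈ R, a * b = b * a := by
    intro a ha b hb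
    haveI := hRc
    haveI : IsMulCommutative R := IsCyclic.isMulCommutative
    have := mul_comm' (⟨a, ha⟩ : R) ⟨b, hb⟩
    exact congrArg Subtype.val this
  have hcent : ∀ z : G, (∀ e ∈ E, z * e = e * z) → (∀ r ∈ R, z * r = r * z) → z ∈ Subgroup.center G := by
    intro z h1 h2
    have h3 : E ⊔ R ≤ Subgroup.centralizer {z} := by
      apply sup_le
      · intro e he
        rw [Subgroup.mem_centralizer_singleton_iff]
        exact (h1 e he).symm
      · intro r hr
        rw [Subgroup.mem_centralizer_singleton_iff]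
        exact (h2 r hr).symm
    rw [hsup] at h3
    rw [Subgroup.mem_center_iff]
    intro g
    have := h3 (Subgroup.mem_top g)
    rw [Subgroup.mem_centralizer_singleton_iff] at this
    exact this
  have hRZ : R ≤ Subgroup.center G := by
    intro r hr
    exact hcent r (fun e he => (hER e he r hr).symm) (fun s hs => hRcomm r hr s hs)
  have h1 : ⁅(⊤ : Subgroup G), (⊤ : Subgroup G)⁆ ≤ ⁅E, E⁆ := by
    rw [← hsup]
    exact Cfsg.Agent.Lib.Asch.GT.commutator_sup_central hRZ E E
  have h2 : ⁅x, y⁆ ∈ ⁅E, E⁆ := h1 (Subgroup.commutator_mem_commutator (Subgroup.mem_top x) (Subgroup.mem_top y))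
  have h3 : ⁅E, E⁆ ≤ Subgroup.center G := by
    rcases hE with rfl | hE
    · rw [Subgroup.commutator_bot_left]
      exact bot_le
    · rw [Subgroup.commutator_le]
      intro a ha b hb
      have h4 : ⁅(⟨a, ha⟩ : E), (⟨b, hb⟩ : E)⁆ ∈ Subgroup.center E := by
        have h5 := hE.1.2.2
        rw [← h5]
        exact Subgroup.commutator_mem_commutator (Subgroup.mem_top _) (Subgroup.mem_top _)
      apply hcent
      · intro e he
        have h6 := Subgroup.mem_center_iff.1 h4 ⟨e, he⟩
        exact (congrArg Subtype.val h6).symm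
      · intro r hr
        exact Subgroup.mem_center_iff.1 (hRZ hr) _
  exact h3 h2

variable {ι : Type} [Fintype ι] [DecidableEq ι] {F : Type u} [Field F]

/-- Commutators of an absolutely irreducible group with central commutators are scalars. -/
theorem scC_of_central [Nonempty ι] {R : Subgroup (GL ι F)} (hA : ActsAbsolutelyIrreducibly (matrixSet R))
    (h : ∀ x y : R, ⁅x, y⁆ ∈ Subgroup.center R) : Cfsg.Agent.Lib.Asch.SC.ScC R := by
  intro x hx y hy
  have h1 := h ⟨x, hx⟩ ⟨y, hy⟩
  rw [Cfsg.Agent.Lib.Asch.SC.center_eq hA] at h1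
  obtain ⟨c, hc⟩ := (Cfsg.Geo.mem_scalars_iff _).1 (Subgroup.mem_subgroupOf.1 h1)
  refine ⟨c, ?_⟩
  have h2 : (x * y * x⁻¹ * y⁻¹ : GL ι F) * (y * x) = x * y := by group
  have h3 : ((x * y * x⁻¹ * y⁻¹ : GL ι F) : Matrix ι ι F) * ((y * x : GL ι F) : Matrix ι ι F) =
      ((x * y : GL ι F) : Matrix ι ι F) := by
    rw [← Units.val_mul, h2]
  have h4 : ((x * y * x⁻¹ * y⁻¹ : GL ι F) : Matrix ι ι F) = (c : F) • 1 := by
    have := hc
    simpa [commutatorElement_def] using this
  rw [h4, Units.val_mul, Units.val_mul, Matrix.smul_mul, one_mul] at h3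
  exact h3.symm

/-- The order of an absolutely irreducible group of symplectic type, `r` odd. -/
theorem card_of_odd [Finite F] [Nonempty ι] {r : ℕ} {R : Subgroup (GL ι F)} (hR : IsSymplecticTypeGroup r R)
    (hodd : Odd r) (hA : ActsAbsolutelyIrreducibly (matrixSet R)) :
    Nat.card R = Nat.card (Subgroup.center R) * (Fintype.card ι) ^ 2 := by
  classical
  haveI : Fact r.Prime := ⟨hR.prime⟩
  have hr2 : r ≠ 2 := by
    rintro rfl
    exact absurd hodd (by decide)
  have hexp : ∀ x : R, x ^ r = 1 := by
    intro x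
    have h1 := Monoid.pow_exponent_eq_one x
    rw [hR.exponent_eq, Nat.coprime_two_left.2 hodd, mul_one] at h1
    exact h1
  apply Cfsg.Agent.Lib.Asch.SC.card_eq hA
  apply scC_of_central hA
  exact comm_mem_center hr2 hR.pGroup hR.cyclic_of_characteristic hexp

/-- The order of an absolutely irreducible group of symplectic type, `r = 2`. -/
theorem card_of_two [Finite F] [Nonempty ι] {R : Subgroup (GL ι F)} (hR : IsSymplecticTypeGroup 2 R)
    (hA : ActsAbsolutelyIrreducibly (matrixSet R)) (hc : Even (Nat.card (Subgroup.center R))) :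
    Nat.card R = Nat.card (Subgroup.center R) * (Fintype.card ι) ^ 2 := by
  classical
  haveI : Finite R := inferInstance
  haveI : Fact (Nat.Prime 2) := ⟨Nat.prime_two⟩
  obtain ⟨z, hz⟩ := exists_prime_orderOf_dvd_card' (G := Subgroup.center R) 2 (by
    exact even_iff_two_dvd.1 hc)
  have hz1 : z ≠ 1 := by
    rintro rfl
    simp at hz
  have hz2 : z * z = 1 := by
    have := pow_orderOf_eq_one z
    rwa [hz, pow_two] at this
  have h4 : ∀ x : R, x ^ 4 = 1 := by
    intro x
    have h2 : Monoid.exponent R = 4 := by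
      rw [hR.exponent_eq]
      norm_num
    rw [← h2]
    exact Monoid.pow_exponent_eq_one x
  have hs := Cfsg.Agent.Lib.TI.SympExp4.structure_thm hR.pGroup hR.cyclic_of_characteristic h4 (z := z.1) z.2
    (congrArg Subtype.val hz2) (fun h => hz1 (Subtype.ext h))
  apply Cfsg.Agent.Lib.Asch.SC.card_eq hA
  apply scC_of_central hA
  intro x y
  rcases hs.2.1 x y with h | h
  · rw [h]
    exact Subgroup.one_mem _
  · rw [h]
    exact z.2

end Cfsg.Agent.Lib.CmaxU.Card
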