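/-
The special unitary group as a subgroup of `GL`: perfect, and its normal subgroups.
-/
import Cfsg.Agent.Lib.Classical.HermBridge
import Cfsg.Agent.Lib.Geo.Basic

set_option autoImplicit false
set_option linter.style.haveILetI false

namespace Cfsg.Agent.Lib.CmaxU.Simple

open Matrix Module Cfsg Cfsg.Geo Cfsg.Agent.Lib.Geo.Basic
open Cfsg.Agent.Lib.Classical.HermBridge Cfsg.Agent.Lib.Classical.HermSimple Cfsg.Agent.Lib.Classical.HermBasic
open Cfsg.Agent.Lib.Classical.SympSimple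
open scoped MatrixGroups

universe u

variable {n : ℕ} {F : Type u} [Field F] {q : ℕ}

/-- The two models of the special unitary group. -/
noncomputable def eSU (n : ℕ) (F : Type u) [Field F] (q : ℕ) :
    ↥(GU n F q ⊓ specialLinear (Fin n) F) ≃* SU n F q where
  toFun g := ⟨⟨(g.1 : Matrix (Fin n) (Fin n) F), (mem_specialLinear_iff g.1).1 g.2.2⟩, fun u v => g.2.1 u v⟩
  invFun g := ⟨Matrix.SpecialLinearGroup.toGL g.1, fun u v => g.2 u v, (mem_specialLinear_iff _).2 g.1.2⟩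
  left_inv g := by
    apply Subtype.ext
    apply Units.ext
    rfl
  right_inv g := by
    apply Subtype.ext
    apply Subtype.ext
    rfl
  map_mul' a b := by
    apply Subtype.ext
    apply Subtype.ext
    rfl

@[simp] theorem eSU_val (g : ↥(GU n F q ⊓ specialLinear (Fin n) F)) :
    (((eSU n F q g : SU n F q).1 : Matrix.SpecialLinearGroup (Fin n) F) : Matrix (Fin n) (Fin n) F) =
      ((g.1 : GL (Fin n) F) : Matrix (Fin n) (Fin n) F) := rfl

variable [Fintype F]

theorem perfect (hF : Fintype.card F = q ^ 2) (hn : 3 ≤ n) (h : ¬ (n = 3 ∧ q = 2)) :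
    ⁅GU n F q ⊓ specialLinear (Fin n) F, GU n F q ⊓ specialLinear (Fin n) F⁆ =
      GU n F q ⊓ specialLinear (Fin n) F := by
  have h0 : commutator (suGroup (Cfsg.hermForm n F q)) = ⊤ :=
    commutator_eq_top (hform hF n) (invol_frob hF) (perfect_hyp hF hn h) (by rw [Module.finrank_fin_fun]; exact hn)
  have h1 : commutator ↥(GU n F q ⊓ specialLinear (Fin n) F) = ⊤ :=
    commutator_eq_top_of_mulEquiv ((eSU n F q).trans (suEquiv n q)) h0
  have h2 := congrArg (fun K => K.map (GU n F q ⊓ specialLinear (Fin n) F).subtype) h1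
  simp only [commutator_def, Subgroup.map_commutator] at h2
  have h3 : (⊤ : Subgroup ↥(GU n F q ⊓ specialLinear (Fin n) F)).map (GU n F q ⊓ specialLinear (Fin n) F).subtype =
      GU n F q ⊓ specialLinear (Fin n) F := by
    rw [← MonoidHom.range_eq_map, Subgroup.range_subtype]
  rwa [h3] at h2

theorem scalars_of_center (hF : Fintype.card F = q ^ 2) (hn : 2 ≤ n) (g : ↥(GU n F q ⊓ specialLinear (Fin n) F))
    (h : eSU n F q g ∈ Subgroup.center (SU n F q)) : (g : GL _ F) ∈ scalars (Fin n) F := by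
  have h1 : (suEquiv n q (eSU n F q g)) ∈ Subgroup.center (suGroup (Cfsg.hermForm n F q)) := by
    have := map_center_mulEquiv (suEquiv (F := F) n q)
    rw [← this]
    exact ⟨_, h, rfl⟩
  obtain ⟨a, ha⟩ := scalar_of_mem_center (hform hF n) (invol_frob hF) (by rw [Module.finrank_fin_fun]; exact hn) h1
  have ha' : ∀ x : Fin n → F, ((g.1 : GL _ F) : Matrix (Fin n) (Fin n) F) *ᵥ x = a • x := fun x => ha x
  have hg : ((g.1 : GL _ F) : Matrix (Fin n) (Fin n) F) = a • 1 := by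
    apply Matrix.toLin'.injective
    apply LinearMap.ext
    intro x
    simp only [Matrix.toLin'_apply]
    rw [ha', Matrix.smul_mulVec, Matrix.one_mulVec]
  have ha0 : a ≠ 0 := by
    rintro rfl
    have h5 : IsUnit ((g.1 : GL _ F) : Matrix (Fin n) (Fin n) F) := g.1.isUnit
    rw [hg, zero_smul] at h5
    haveI : Nonempty (Fin n) := ⟨⟨0, by omega⟩⟩
    exact not_isUnit_zero h5
  exact (mem_scalars_iff _).2 ⟨Units.mk0 a ha0, hg⟩

/-- The normal subgroups of the special unitary group. -/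
theorem normal (hF : Fintype.card F = q ^ 2) (hn : 3 ≤ n) (hne : ¬ (n = 3 ∧ q = 2)) (N : Subgroup (GL (Fin n) F))
    (hNI : N ≤ GU n F q ⊓ specialLinear (Fin n) F)
    (hN : ∀ g ∈ GU n F q ⊓ specialLinear (Fin n) F, ∀ x ∈ N, g * x * g⁻¹ ∈ N) :
    N ≤ scalars (Fin n) F ∨ GU n F q ⊓ specialLinear (Fin n) F ≤ N ⊔ scalars (Fin n) F := by
  classical
  haveI hs : IsSimpleGroup (Cfsg.PSU n F q) := isSimpleGroup_PSU hF n hn hne
  let G₀ := SU n F q
  let e := eSU n F q
  let N₀ : Subgroup G₀ := (N.subgroupOf (GU n F q ⊓ specialLinear (Fin n) F)).map e.toMonoidHom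
  have hN₀ : N₀.Normal := by
    refine ⟨?_⟩
    rintro _ ⟨⟨n', hn'⟩, hn'', rfl⟩ g
    obtain ⟨g', rfl⟩ := e.surjective g
    refine ⟨g' * ⟨n', hn'⟩ * g'⁻¹, ?_, by simp⟩
    exact hN g'.1 g'.2 n' hn''
  let π := QuotientGroup.mk' (Subgroup.center G₀)
  haveI hK : (N₀.map π).Normal := hN₀.map π (QuotientGroup.mk'_surjective _)
  rcases IsSimpleGroup.eq_bot_or_eq_top_of_normal (N₀.map π) hK with h | h
  · left
    intro x hx
    have hxI := hNI hx
    have h1 : π (e ⟨x, hxI⟩) = 1 := by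
      have h2 : π (e ⟨x, hxI⟩) ∈ N₀.map π := ⟨_, ⟨⟨x, hxI⟩, hx, rfl⟩, rfl⟩
      rw [h] at h2
      exact h2
    have h2 : e ⟨x, hxI⟩ ∈ Subgroup.center G₀ := (QuotientGroup.eq_one_iff _).1 h1
    exact scalars_of_center hF (by omega) ⟨x, hxI⟩ h2
  · right
    intro g hg
    have h1 : π (e ⟨g, hg⟩) ∈ N₀.map π := by
      rw [h]
      trivial
    obtain ⟨_, ⟨n', hn', rfl⟩, hπ⟩ := h1
    have h2 : (e n')⁻¹ * e ⟨g, hg⟩ ∈ Subgroup.center G₀ := QuotientGroup.eq.1 hπ
    have h3 : e (n'⁻¹ * ⟨g, hg⟩) ∈ Subgroup.center G₀ := by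
      rwa [map_mul, map_inv]
    have h4 := scalars_of_center hF (by omega) _ h3
    have h5 : g = (n' : GL _ F) * (((n'⁻¹ * ⟨g, hg⟩ : ↥(GU n F q ⊓ specialLinear (Fin n) F))) : GL _ F) := by
      simp
    rw [h5]
    exact Subgroup.mul_mem _ (Subgroup.mem_sup_left hn') (Subgroup.mem_sup_right h4)

end Cfsg.Agent.Lib.CmaxU.Simple
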