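/-
The geometric classes of the special unitary groups do not contain the whole special unitary group.
-/
import Cfsg.Agent.Lib.Geo.UTrans3
import Cfsg.Agent.Lib.Geo.SUWitt
import Cfsg.Agent.Lib.CmaxS.Proper2
import Cfsg.Agent.Lib.CmaxU.Card
import Cfsg.Agent.Lib.CmaxU.Simple

set_option autoImplicit false
set_option linter.unusedSectionVars false
set_option linter.style.haveILetI false
set_option linter.unusedVariables false

namespace Cfsg.Agent.Lib.CmaxU.Proper

open Matrix Module Cfsg Cfsg.Geo Cfsg.Agent.Lib.Geo.Basic Cfsg.Agent.Lib.Geo.UnitaryInSL Cfsg.Agent.Lib.Geo.SUGen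
open Cfsg.Agent.Lib.Geo.SUBase Cfsg.Agent.Lib.Geo.SUWitt Cfsg.Agent.Lib.Geo.Centres
open Cfsg.Agent.Lib.NotMax.Tensor
open scoped MatrixGroups

universe u

variable {ι : Type} [Fintype ι] [DecidableEq ι] {F : Type u} [Field F]
variable {σ : F ≃+* F} {f : (ι → F) → (ι → F) → F} (hf : IsUnitaryForm σ f) {I : Subgroup (GL ι F)}

include hf

theorem uT_mem_I (hI : ∀ g : GL ι F, IsIso f g → (g : Matrix ι ι F).det = 1 → g ∈ I) (v : ι → F) (a : F)
    (hv : f v v = 0) (ha : a + σ a = 0) : uT hf v a hv ∈ I :=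
  hI _ (uT_isIso hf v a hv ha) ((mem_specialLinear_iff _).1 (uT_mem hf v a hv ha).2)

/-- Isotropic partner. -/
theorem exists_hp {u : ι → F} (hu0 : u ≠ 0) (huu : f u u = 0) : ∃ w, f w w = 0 ∧ f w u = 1 := by
  obtain ⟨y, hy⟩ := (hf.nondegenerate u hu0).1
  obtain ⟨y', h1⟩ : ∃ y', f y' u = 1 := ⟨(f y u)⁻¹ • y, by rw [hf.smul_left, inv_mul_cancel₀ hy]⟩
  have h2 : f u y' = 1 := by
    rw [hf.herm, h1, map_one]
  have hs : σ (- f y' y') = - f y' y' := by
    rw [map_neg, UForm.sigma_self hf]
  obtain ⟨b, hb⟩ := exists_add_sigma_eq σ hf.ne_refl hf.involutive _ hs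
  refine ⟨y' + b • u, ?_, ?_⟩
  · rw [hf.add_left, UForm.add_right hf, UForm.add_right hf, hf.smul_left, hf.smul_left, UForm.smul_right hf,
      UForm.smul_right hf, h1, h2, huu]
    linear_combination hb
  · rw [hf.add_left, hf.smul_left, h1, huu]
    ring

/-- A non-zero isotropic vector orthogonal to a given vector. -/
theorem exists_iso_perp [Finite F] (hι : 3 ≤ Fintype.card ι) (x : ι → F) : ∃ u : ι → F, u ≠ 0 ∧ f u u = 0 ∧ f u x = 0 := by
  let L : (ι → F) →ₗ[F] F :=
    { toFun := fun w => f w x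
      map_add' := fun a b => hf.add_left a b x
      map_smul' := fun c a => hf.smul_left c a x }
  have h1 : 2 ≤ finrank F (LinearMap.ker L) := by
    have h2 := LinearMap.finrank_range_add_finrank_ker L
    have h3 : finrank F (LinearMap.range L) ≤ 1 := by
      have := Submodule.finrank_le (LinearMap.range L)
      simpa using this
    rw [Module.finrank_fintype_fun_eq_card] at h2
    omega
  obtain ⟨p, hp, hp0, hpp⟩ := UForm.exists_isotropic hf _ h1
  exact ⟨p, hp0, hpp, hp⟩

/-- The isotropic vectors span. -/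
theorem mem_span_iso [Finite F] (hι : 3 ≤ Fintype.card ι) (x : ι → F) :
    x ∈ Submodule.span F {v : ι → F | f v v = 0} := by
  obtain ⟨u, hu0, huu, hux⟩ := exists_iso_perp hf hι x
  obtain ⟨u', hu'u', hu'u⟩ := exists_hp hf hu0 huu
  have h1 : f u u' = 1 := by rw [hf.herm, hu'u, map_one]
  have h2 : f x u = 0 := by rw [hf.herm, hux, map_zero]
  have hs : σ (-(f x x + f x u' + f u' x)) = -(f x x + f x u' + f u' x) := by
    rw [map_neg, map_add, map_add, UForm.sigma_self hf, UForm.sigma_form hf, UForm.sigma_form hf]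
    ring
  obtain ⟨b, hb⟩ := exists_add_sigma_eq σ hf.ne_refl hf.involutive _ hs
  have hz : f (x + u' + b • u) (x + u' + b • u) = 0 := by
    simp only [hf.add_left, UForm.add_right hf, hf.smul_left, UForm.smul_right hf]
    rw [hux, h2, hu'u', hu'u, h1, huu]
    linear_combination hb
  have h3 : x = (x + u' + b • u) - u' - b • u := by
    abel
  rw [h3]
  refine Submodule.sub_mem _ (Submodule.sub_mem _ (Submodule.subset_span hz) (Submodule.subset_span hu'u'))
    (Submodule.smul_mem _ _ (Submodule.subset_span huu))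

/-- A vector orthogonal to all isotropic vectors is zero. -/
theorem eq_zero_of_orth_iso [Finite F] (hι : 3 ≤ Fintype.card ι) {x : ι → F} (h : ∀ w, f w w = 0 → f x w = 0) : x = 0 := by
  by_contra hx
  obtain ⟨y, hy⟩ := (hf.nondegenerate x hx).2
  have key : ∀ y, y ∈ Submodule.span F {v : ι → F | f v v = 0} → f x y = 0 := by
    intro y hy
    induction hy using Submodule.span_induction with
    | mem w hw => exact h w hw
    | zero => exact Cfsg.Agent.Lib.Geo.SUWitt.zero_right hf x
    | add a b _ _ ha hb => rw [UForm.add_right hf, ha, hb, add_zero]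
    | smul c a _ ha => rw [UForm.smul_right hf, ha, mul_zero]
  exact hy (key y (mem_span_iso hf hι y))

/-- A transvection moves `x` by a multiple of its centre. -/
theorem mem_of_form_ne (hI : ∀ g : GL ι F, IsIso f g → (g : Matrix ι ι F).det = 1 → g ∈ I)
    {W : Submodule F (ι → F)} (hle : I ≤ subspaceStabilizer W) {x v : ι → F} (hx : x ∈ W)
    (hv : f v v = 0) (h : f x v ≠ 0) : v ∈ W := by
  obtain ⟨a, ha0, ha⟩ := exists_trace_zero σ hf.ne_refl hf.involutive
  have h1 := (mem_subspaceStabilizer_iff_forall_mem W _).1 (hle (uT_mem_I hf hI v a hv ha)) x hx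
  rw [uT_mulVec] at h1
  have h2 : f x v • a • v ∈ W := by
    have := W.sub_mem h1 hx
    simpa using this
  rw [smul_smul] at h2
  have := W.smul_mem (f x v * a)⁻¹ h2
  rwa [smul_smul, inv_mul_cancel₀ (mul_ne_zero h ha0), one_smul] at this

theorem not_le_subspace [Finite F] (hI : ∀ g : GL ι F, IsIso f g → (g : Matrix ι ι F).det = 1 → g ∈ I)
    (hι : 3 ≤ Fintype.card ι) {W : Submodule F (ι → F)} (h0 : W ≠ ⊥) (h1 : W ≠ ⊤) : ¬ I ≤ subspaceStabilizer W := by
  intro hle
  by_cases hex : ∃ v ∈ W, v ≠ 0 ∧ f v v = 0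
  · obtain ⟨v₀, hv, hv0, hvv⟩ := hex
    have hall : ∀ w, f w w = 0 → w ∈ W := by
      intro w hww
      by_contra hw
      have hw0 : w ≠ 0 := by
        rintro rfl
        exact hw W.zero_mem
      have horth : ∀ x ∈ W, f x w = 0 := by
        intro x hx
        by_contra h
        exact hw (mem_of_form_ne hf hI hle hx hww h)
      obtain ⟨z, hz0, hzz, h3, h4⟩ := Cfsg.Agent.Lib.Geo.UTrans.exists_common hf hv0 hw0 hvv (horth v₀ hv)
      have hzW : z ∈ W := mem_of_form_ne hf hI hle hv hzz (form_comm_ne hf h3)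
      exact h4 (horth z hzW)
    apply h1
    rw [Submodule.eq_top_iff']
    intro x
    have := mem_span_iso hf hι x
    exact (Submodule.span_le.2 hall) this
  · push Not at hex
    apply h0
    rw [eq_bot_iff]
    intro x hx
    rw [Submodule.mem_bot]
    apply eq_zero_of_orth_iso hf hι
    intro w hww
    by_contra h
    have h2 := mem_of_form_ne hf hI hle hx hww h
    have h3 : w ≠ 0 := by
      rintro rfl
      exact h (Cfsg.Agent.Lib.Geo.SUWitt.zero_right hf x)
    exact hex w h2 h3 hww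

omit hf in
theorem inter_zero {t m : ℕ} {D : Fin t → Submodule F (ι → F)} (hD : IsMDecomposition m D) {i j : Fin t} (hij : i ≠ j)
    {x : ι → F} (h1 : x ∈ D i) (h2 : x ∈ D j) : x = 0 :=
  (Submodule.disjoint_def.1 (hD.indep i)) x h1 ((le_iSup₂_of_le (f := fun k (_ : k ≠ i) => D k) j hij.symm le_rfl) h2)

omit hf in
/-- Elements of the stabiliser of a decomposition. -/
theorem mem_stab {t : ℕ} {D : Fin t → Submodule F (ι → F)} {g : GL ι F} (hg : g ∈ decompositionStabilizer D) :
    ∃ τ : Equiv.Perm (Fin t), ∀ i, ∀ x ∈ D i, (g : Matrix ι ι F) *ᵥ x ∈ D (τ i) := by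
  obtain ⟨τ, hτ⟩ := hg
  refine ⟨τ, fun i x hx => ?_⟩
  rw [← hτ i]
  exact ⟨x, hx, rfl⟩

/-- A vector orthogonal to all the members of a decomposition is zero. -/
theorem eq_zero_of_orth_decomp {t m : ℕ} {D : Fin t → Submodule F (ι → F)} (hD : IsMDecomposition m D) {v : ι → F}
    (h : ∀ i, ∀ x ∈ D i, f x v = 0) : v = 0 := by
  by_contra hv
  obtain ⟨y, hy⟩ := (hf.nondegenerate v hv).1
  have key : ∀ y, y ∈ iSup D → f y v = 0 := by
    intro y hy'
    induction hy' using Submodule.iSup_induction' with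
    | mem i x hx => exact h i x hx
    | zero => exact UForm.zero_left hf v
    | add a b _ _ ha hb => rw [hf.add_left, ha, hb, add_zero]
  apply hy
  apply key
  rw [hD.iSup_eq_top]
  trivial

/-- No decomposition into subspaces of dimension at least two with an isotropic vector outside of the members. -/
theorem not_le_decomp_two (hI : ∀ g : GL ι F, IsIso f g → (g : Matrix ι ι F).det = 1 → g ∈ I) {t m : ℕ} (hm : 2 ≤ m)
    {D : Fin t → Submodule F (ι → F)} (hD : IsMDecomposition m D) {v : ι → F} (hv0 : v ≠ 0) (hvv : f v v = 0)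
    (hvD : ∀ i, v ∉ D i) : ¬ I ≤ decompositionStabilizer D := by
  classical
  intro hle
  obtain ⟨a, ha0, ha⟩ := exists_trace_zero σ hf.ne_refl hf.involutive
  obtain ⟨τ, hτ⟩ := mem_stab (hle (uT_mem_I hf hI v a hvv ha))
  have hfix : ∀ j, τ j = j := by
    intro j
    by_contra hne
    let L : (D j) →ₗ[F] F :=
      { toFun := fun w => f w.1 v
        map_add' := fun a b => hf.add_left a.1 b.1 v
        map_smul' := fun c a => hf.smul_left c a.1 v }
    have hker : LinearMap.ker L ≠ ⊥ := by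
      apply LinearMap.ker_ne_bot_of_finrank_lt
      rw [hD.finrank_eq j, Module.finrank_self]
      omega
    obtain ⟨x, hx, hx0⟩ := Submodule.exists_mem_ne_zero_of_ne_bot hker
    have hfx : f x.1 v = 0 := hx
    have h1 := hτ j x.1 x.2
    rw [uT_mulVec, hfx, zero_smul, add_zero] at h1
    exact hx0 (Subtype.ext (inter_zero hD (Ne.symm hne) x.2 h1))
  apply hv0
  apply eq_zero_of_orth_decomp hf hD
  intro i x hx
  by_contra h
  have h1 := hτ i x hx
  rw [uT_mulVec, hfix i] at h1
  have h2 : f x v • a • v ∈ D i := by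
    have := (D i).sub_mem h1 hx
    simpa using this
  rw [smul_smul] at h2
  have := (D i).smul_mem (f x v * a)⁻¹ h2
  rw [smul_smul, inv_mul_cancel₀ (mul_ne_zero h ha0), one_smul] at this
  exact hvD i this

/-- No decomposition with an isotropic vector having at least three non-zero components. -/
theorem not_le_decomp_one (hI : ∀ g : GL ι F, IsIso f g → (g : Matrix ι ι F).det = 1 → g ∈ I) {t m : ℕ}
    {D : Fin t → Submodule F (ι → F)} (hD : IsMDecomposition m D)
    (hO : ∀ i j, i ≠ j → AreOrthogonalFor f (D i) (D j)) {v : ι → F} (hv0 : v ≠ 0) (hvv : f v v = 0)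
    (hw : ∀ i j, ∃ k, k ≠ i ∧ k ≠ j ∧ ∃ e ∈ D k, f e v ≠ 0) : ¬ I ≤ decompositionStabilizer D := by
  classical
  intro hle
  obtain ⟨a, ha0, ha⟩ := exists_trace_zero σ hf.ne_refl hf.involutive
  obtain ⟨τ, hτ⟩ := mem_stab (hle (uT_mem_I hf hI v a hvv ha))
  have hnot : ∀ i j, v ∉ D i ⊔ D j := by
    intro i j hv
    obtain ⟨k, hki, hkj, e, he, hev⟩ := hw i j
    apply hev
    obtain ⟨b, hb, c, hc, rfl⟩ := Submodule.mem_sup.1 hv
    rw [UForm.add_right hf, hO k i hki e he b hb, hO k j hkj e he c hc, add_zero]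
  have hpos : ∀ j, D j ≠ ⊥ := by
    intro j h
    have h1 := hD.finrank_eq j
    rw [h] at h1
    have := hD.pos
    simp at h1
    omega
  have hfix : ∀ j, τ j = j := by
    intro j
    by_contra hne
    obtain ⟨x, hx, hx0⟩ := Submodule.exists_mem_ne_zero_of_ne_bot (hpos j)
    have h1 := hτ j x hx
    rw [uT_mulVec] at h1
    by_cases hc : f x v = 0
    · rw [hc, zero_smul, add_zero] at h1
      exact hx0 (inter_zero hD (Ne.symm hne) hx h1)
    · apply hnot (τ j) j
      rw [smul_smul] at h1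
      have h2 : (f x v * a) • v ∈ D (τ j) ⊔ D j := by
        have := Submodule.sub_mem _ (Submodule.mem_sup_left h1 : _ ∈ D (τ j) ⊔ D j) (Submodule.mem_sup_right hx)
        simpa using this
      have := Submodule.smul_mem _ (f x v * a)⁻¹ h2
      rwa [smul_smul, inv_mul_cancel₀ (mul_ne_zero hc ha0), one_smul] at this
  obtain ⟨k, -, -, e, he, hev⟩ := hw ⟨0, by
    by_contra h
    have := hD.two_le
    omega⟩ ⟨0, by
    by_contra h
    have := hD.two_le
    omega⟩
  have h1 := hτ k e he
  rw [uT_mulVec, hfix k, smul_smul] at h1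
  have h2 : (f e v * a) • v ∈ D k := by
    have := (D k).sub_mem h1 he
    simpa using this
  have := (D k).smul_mem (f e v * a)⁻¹ h2
  rw [smul_smul, inv_mul_cancel₀ (mul_ne_zero hev ha0), one_smul] at this
  exact hnot k k (Submodule.mem_sup_left this)

/-- A vector orthogonal to two given functionals. -/
theorem exists_perp_pair (hι : 3 ≤ Fintype.card ι) (v : ι → F) (k : Matrix ι ι F) :
    ∃ w : ι → F, w ≠ 0 ∧ f w v = 0 ∧ f (k *ᵥ w) v = 0 := by
  let φ : (ι → F) →ₗ[F] F :=
    { toFun := fun w => f w v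
      map_add' := fun a b => hf.add_left a b v
      map_smul' := fun c a => hf.smul_left c a v }
  let L : (ι → F) →ₗ[F] (Fin 2 → F) := LinearMap.pi ![φ, φ ∘ₗ Matrix.mulVecLin k]
  have hker : LinearMap.ker L ≠ ⊥ := by
    apply LinearMap.ker_ne_bot_of_finrank_lt
    simp only [Module.finrank_fintype_fun_eq_card, Fintype.card_fin]
    omega
  obtain ⟨w, hw, hw0⟩ := Submodule.exists_mem_ne_zero_of_ne_bot hker
  refine ⟨w, hw0, ?_, ?_⟩
  · have := congrFun (LinearMap.mem_ker.1 hw) 0
    simpa [L, φ] using this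
  · have := congrFun (LinearMap.mem_ker.1 hw) 1
    simpa [L, φ] using this

/-- A matrix commuting with all transvections is scalar. -/
theorem scalar_of_comm [Finite F] (hι : 3 ≤ Fintype.card ι) {k : Matrix ι ι F}
    (h : ∀ (v : ι → F) (a : F) (hv : f v v = 0), a + σ a = 0 →
      ((uT hf v a hv : GL ι F) : Matrix ι ι F) * k = k * ((uT hf v a hv : GL ι F) : Matrix ι ι F)) :
    ∃ c : F, k = c • 1 := by
  classical
  obtain ⟨a, ha0, ha⟩ := exists_trace_zero σ hf.ne_refl hf.involutive
  have heig : ∀ v : ι → F, v ≠ 0 → f v v = 0 → ∃ c : F, k *ᵥ v = c • v := by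
    intro v hv0 hv
    obtain ⟨x, hx⟩ := (hf.nondegenerate v hv0).1
    refine ⟨f (k *ᵥ x) v / f x v, ?_⟩
    have h1 := congrArg (fun M => M *ᵥ x) (h v a hv ha)
    simp only [← Matrix.mulVec_mulVec, uT_mulVec, Matrix.mulVec_add, Matrix.mulVec_smul] at h1
    have h2 : (f (k *ᵥ x) v * a) • v = (f x v * a) • (k *ᵥ v) := by
      have := add_left_cancel h1
      simpa only [smul_smul] using this
    have h3 : k *ᵥ v = (f x v * a)⁻¹ • ((f x v * a) • (k *ᵥ v)) := by
      rw [smul_smul, inv_mul_cancel₀ (mul_ne_zero hx ha0), one_smul]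
    rw [h3, ← h2, smul_smul]
    congr 1
    field_simp
  have hadj : ∀ u w : ι → F, u ≠ 0 → w ≠ 0 → f u u = 0 → f w w = 0 → f u w ≠ 0 → ∀ c d : F,
      k *ᵥ u = c • u → k *ᵥ w = d • w → c = d := by
    intro u w hu0 hw0 huu hww huw c d hc hd
    have hwu : f w u ≠ 0 := form_comm_ne hf huw
    set s := a / f w u with hs
    have hs0 : s ≠ 0 := div_ne_zero ha0 hwu
    have hy : f (u + s • w) (u + s • w) = 0 := by
      simp only [hf.add_left, UForm.add_right hf, hf.smul_left, UForm.smul_right hf]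
      rw [huu, hww]
      have h1 : σ s * f u w = σ a := by
        rw [hs, map_div₀, UForm.sigma_form hf]
        field_simp
      have h2 : s * f w u = a := by
        rw [hs]
        field_simp
      linear_combination h1 + h2 + ha
    have hy0 : u + s • w ≠ 0 := by
      intro h0
      have h1 : u = -(s • w) := eq_neg_of_add_eq_zero_left h0
      apply huw
      have h2 : u = (-s) • w := by
        rw [h1, neg_smul]
      rw [h2, hf.smul_left, hww, mul_zero]
    obtain ⟨e, he⟩ := heig _ hy0 hy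
    rw [Matrix.mulVec_add, Matrix.mulVec_smul, hc, hd] at he
    have h1 := congrArg (fun z => f z w) he
    simp only [hf.add_left, hf.smul_left, smul_add, hww] at h1
    have h2 := congrArg (fun z => f z u) he
    simp only [hf.add_left, hf.smul_left, smul_add, huu] at h2
    have h3 : c = e := by
      have : (c - e) * f u w = 0 := by linear_combination h1
      rcases mul_eq_zero.1 this with h4 | h4
      · linear_combination h4
      · exact absurd h4 huw
    have h4 : d = e := by
      have : (d - e) * (s * f w u) = 0 := by linear_combination h2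
      rcases mul_eq_zero.1 this with h5 | h5
      · linear_combination h5
      · exact absurd h5 (mul_ne_zero hs0 hwu)
    rw [h3, h4]
  have hall : ∀ u w : ι → F, u ≠ 0 → w ≠ 0 → f u u = 0 → f w w = 0 → ∀ c d : F,
      k *ᵥ u = c • u → k *ᵥ w = d • w → c = d := by
    intro u w hu0 hw0 huu hww c d hc hd
    by_cases huw : f u w = 0
    · obtain ⟨z, hz0, hzz, h1, h2⟩ := Cfsg.Agent.Lib.Geo.UTrans.exists_common hf hu0 hw0 huu huw
      obtain ⟨e, he⟩ := heig z hz0 hzz
      have h3 := hadj z u hz0 hu0 hzz huu h1 e c he hc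
      have h4 := hadj z w hz0 hw0 hzz hww h2 e d he hd
      rw [← h3, h4]
    · exact hadj u w hu0 hw0 huu hww huw c d hc hd
  obtain ⟨u₀, hu₀, huu₀, -⟩ := exists_iso_perp hf hι 0
  obtain ⟨c₀, hc₀⟩ := heig u₀ hu₀ huu₀
  refine ⟨c₀, ?_⟩
  have key : ∀ x : ι → F, k *ᵥ x = c₀ • x := by
    intro x
    induction mem_span_iso hf hι x using Submodule.span_induction with
    | mem w hw =>
      by_cases hw0 : w = 0
      · simp [hw0]
      · obtain ⟨d, hd⟩ := heig w hw0 hw
        have := hall w u₀ hw0 hu₀ hw huu₀ d c₀ hd hc₀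
        rw [hd, this]
    | zero => simp
    | add a b _ _ ha hb => rw [Matrix.mulVec_add, ha, hb, smul_add]
    | smul c a _ ha => rw [Matrix.mulVec_smul, ha, smul_comm]
  apply Matrix.toLin'.injective
  apply LinearMap.ext
  intro x
  simp only [Matrix.toLin'_apply]
  rw [key, Matrix.smul_mulVec, Matrix.one_mulVec]

/-- The special unitary group does not normalise a field. -/
theorem not_le_field [Finite F] (hI : ∀ g : GL ι F, IsIso f g → (g : Matrix ι ι F).det = 1 → g ∈ I) {r : ℕ} (hr : 2 ≤ r)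
    {K : Subalgebra F (Matrix ι ι F)} (hK : IsFieldSubalgebra r K) (hι : 3 ≤ Fintype.card ι) :
    ¬ I ≤ subalgebraNormalizer K := by
  classical
  intro hle
  haveI : Nonempty ι := by
    apply Fintype.card_pos_iff.1
    omega
  have hcomm : ∀ k ∈ K, ∀ (v : ι → F) (a : F) (hv : f v v = 0), a + σ a = 0 →
      ((uT hf v a hv : GL ι F) : Matrix ι ι F) * k = k * ((uT hf v a hv : GL ι F) : Matrix ι ι F) := by
    intro k hk v a hv ha
    set t := uT hf v a hv with ht
    have hm := hle (uT_mem_I hf hI v a hv ha)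
    have h1 : (t : Matrix ι ι F) * k * ((t⁻¹ : GL ι F) : Matrix ι ι F) ∈ K := (hm k).1 hk
    by_contra hne
    have hx0 : (t : Matrix ι ι F) * k * ((t⁻¹ : GL ι F) : Matrix ι ι F) - k ≠ 0 := by
      intro h0
      apply hne
      have h2 := sub_eq_zero.1 h0
      calc (t : Matrix ι ι F) * k = (t : Matrix ι ι F) * k * (((t⁻¹ : GL ι F) : Matrix ι ι F) * (t : Matrix ι ι F)) := by
            rw [← Units.val_mul, inv_mul_cancel, Units.val_one, mul_one]
        _ = ((t : Matrix ι ι F) * k * ((t⁻¹ : GL ι F) : Matrix ι ι F)) * (t : Matrix ι ι F) := by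
            simp only [mul_assoc]
        _ = k * (t : Matrix ι ι F) := by rw [h2]
    obtain ⟨y, hy, hxy⟩ := hK.inv _ (K.sub_mem h1 hk) hx0
    have hyx := hK.comm _ (K.sub_mem h1 hk) y hy
    rw [hxy] at hyx
    obtain ⟨w, hw0, hw1, hw2⟩ := exists_perp_pair hf hι v k
    have hfix : ∀ b : ι → F, f b v = 0 → (t : Matrix ι ι F) *ᵥ b = b := by
      intro b hb
      rw [ht, uT_mulVec, hb, zero_smul, add_zero]
    have hw3 : ((t⁻¹ : GL ι F) : Matrix ι ι F) *ᵥ w = w := by
      conv_lhs => rw [← hfix w hw1]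
      exact inv_mulVec_mulVec t w
    have hxw : ((t : Matrix ι ι F) * k * ((t⁻¹ : GL ι F) : Matrix ι ι F) - k) *ᵥ w = 0 := by
      rw [Matrix.sub_mulVec, ← Matrix.mulVec_mulVec, hw3, ← Matrix.mulVec_mulVec, hfix _ hw2, sub_self]
    apply hw0
    have h5 : (y * ((t : Matrix ι ι F) * k * ((t⁻¹ : GL ι F) : Matrix ι ι F) - k)) *ᵥ w = w := by
      rw [← hyx, Matrix.one_mulVec]
    rw [← h5, ← Matrix.mulVec_mulVec, hxw, Matrix.mulVec_zero]
  have hsc : ∀ k ∈ K, k ∈ (⊥ : Subalgebra F (Matrix ι ι F)) := by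
    intro k hk
    obtain ⟨c, rfl⟩ := scalar_of_comm hf hι (hcomm k hk)
    rw [Algebra.mem_bot]
    exact ⟨c, by simp [Algebra.algebraMap_eq_smul_one]⟩
  have hbot : K = ⊥ := eq_bot_iff.2 hsc
  have h1 := hK.finrank_eq
  rw [hbot, Subalgebra.finrank_bot] at h1
  omega

end Cfsg.Agent.Lib.CmaxU.Proper
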