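/-
The geometric classes of the special unitary groups, continued: tensor products, subfields, normalisers, tensor powers.
-/
import Cfsg.Agent.Lib.CmaxU.Proper
import Cfsg.Agent.Lib.Asch.MaxSN

set_option autoImplicit false
set_option linter.unusedSectionVars false
set_option linter.style.haveILetI false
set_option linter.unusedVariables false

namespace Cfsg.Agent.Lib.CmaxU.Proper2

open Matrix Module Cfsg Cfsg.Geo Cfsg.Agent.Lib.Geo.Basic Cfsg.Agent.Lib.Geo.UnitaryInSL Cfsg.Agent.Lib.Geo.SUGen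
open Cfsg.Agent.Lib.Geo.SUBase Cfsg.Agent.Lib.Geo.SUWitt Cfsg.Agent.Lib.Geo.Centres Cfsg.Agent.Lib.Geo.UTrans
open Cfsg.Agent.Lib.NotMax.Tensor Cfsg.Agent.Lib.CmaxU.Proper
open Cfsg.Agent.Lib.Classical.TransvRoot (E_mul_E)
open scoped MatrixGroups

universe u

variable {ι : Type} [Fintype ι] [DecidableEq ι] {F : Type u} [Field F]

/-- An element of the form `1 +` (rank one nilpotent) is not in a tensor product subgroup. -/
theorem not_mem_tensor {n₁ n₂ : ℕ} (h1 : 2 ≤ n₁) (h2 : 2 ≤ n₂) (e : ι ≃ Fin n₁ × Fin n₂) (P : GL ι F) (t : GL ι F)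
    (φ : (ι → F) → F) (v : ι → F) (hadd : ∀ a b, φ (a + b) = φ a + φ b) (hsm : ∀ (c : F) a, φ (c • a) = c * φ a)
    (ht : ∀ x, (t : Matrix ι ι F) *ᵥ x = x + φ x • v) (hv0 : v ≠ 0) (hφv : φ v = 0) (hφ : ∃ x, φ x ≠ 0) :
    t ∉ tensorProductSubgroup n₁ n₂ e P := by
  classical
  intro hle
  haveI : Nonempty (Fin n₁) := ⟨⟨0, by omega⟩⟩
  haveI : Nonempty (Fin n₂) := ⟨⟨0, by omega⟩⟩
  obtain ⟨a, b, hab⟩ := mem_tensor e P hle
  have hT : ∀ x y, TT e P ((a : Matrix _ _ F) *ᵥ x) ((b : Matrix _ _ F) *ᵥ y) =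
      TT e P x y + φ (TT e P x y) • v := by
    intro x y
    rw [← hab, ht]
  have hfL : ∀ (x : Fin n₁ → F) (y y' : Fin n₂ → F), φ (TT e P x (y + y')) = φ (TT e P x y) + φ (TT e P x y') := by
    intro x y y'
    rw [TT_add_right, hadd]
  have hfLs : ∀ (x : Fin n₁ → F) (c : F) (y : Fin n₂ → F), φ (TT e P x (c • y)) = c * φ (TT e P x y) := by
    intro x c y
    rw [TT_smul_right, hsm]
  have hfR : ∀ (y : Fin n₂ → F) (x x' : Fin n₁ → F), φ (TT e P (x + x') y) = φ (TT e P x y) + φ (TT e P x' y) := by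
    intro y x x'
    rw [TT_add_left, hadd]
  have hfRs : ∀ (y : Fin n₂ → F) (c : F) (x : Fin n₁ → F), φ (TT e P (c • x) y) = c * φ (TT e P x y) := by
    intro y c x
    rw [TT_smul_left, hsm]
  have ex2 : ∀ (κ : ℕ) (_ : 2 ≤ κ) (ψ : (Fin κ → F) → F), (∀ y y', ψ (y + y') = ψ y + ψ y') →
      (∀ (c : F) y, ψ (c • y) = c * ψ y) → ∃ y, y ≠ 0 ∧ ψ y = 0 := by
    intro κ hκ ψ h3 h4
    let L : (Fin κ → F) →ₗ[F] F :=
      { toFun := ψ
        map_add' := h3
        map_smul' := h4 }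
    have hker : LinearMap.ker L ≠ ⊥ := by
      apply LinearMap.ker_ne_bot_of_finrank_lt
      simp only [Module.finrank_fintype_fun_eq_card, Fintype.card_fin, Module.finrank_self]
      omega
    obtain ⟨w, hw, hw0⟩ := Submodule.exists_mem_ne_zero_of_ne_bot hker
    exact ⟨w, hw0, hw⟩
  obtain ⟨A, hA⟩ : ∃ A : F, (a : Matrix (Fin n₁) (Fin n₁) F) = A • 1 := by
    apply Cfsg.Agent.Lib.CmaxS.Proper.scalar_of_eig
    intro x hx
    obtain ⟨y, hy0, hy⟩ := ex2 n₂ h2 (fun y => φ (TT e P x y)) (hfL x) (fun c y => hfLs x c y)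
    have h3 := hT x y
    rw [hy, zero_smul, add_zero] at h3
    obtain ⟨r, -, hr, -⟩ := TT_unique e P hx hy0 h3.symm
    exact ⟨r, hr⟩
  obtain ⟨B, hB⟩ : ∃ B : F, (b : Matrix (Fin n₂) (Fin n₂) F) = B • 1 := by
    apply Cfsg.Agent.Lib.CmaxS.Proper.scalar_of_eig
    intro y hy
    obtain ⟨x, hx0, hx⟩ := ex2 n₁ h1 (fun x => φ (TT e P x y)) (hfR y) (fun c x => hfRs y c x)
    have h3 := hT x y
    rw [hx, zero_smul, add_zero] at h3
    obtain ⟨r, hr0, -, hr⟩ := TT_unique e P hx0 hy h3.symm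
    refine ⟨r⁻¹, ?_⟩
    rw [hr, smul_smul, inv_mul_cancel₀ hr0, one_smul]
    rw [← hr]
  have hsc : (t : Matrix ι ι F) = (A * B) • (1 : Matrix ι ι F) := by
    apply ext_TT e P
    intro x y
    rw [hab, hA, hB, Matrix.smul_mulVec, Matrix.smul_mulVec, Matrix.one_mulVec, Matrix.one_mulVec,
      TT_smul_left, TT_smul_right, Matrix.smul_mulVec, Matrix.one_mulVec, smul_smul]
  have hvv : (t : Matrix ι ι F) *ᵥ v = v := by
    rw [ht, hφv, zero_smul, add_zero]
  have hAB : A * B = 1 := by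
    rw [hsc, Matrix.smul_mulVec, Matrix.one_mulVec] at hvv
    have h3 : (A * B - 1) • v = 0 := by
      rw [sub_smul, hvv, one_smul, sub_self]
    rcases smul_eq_zero.1 h3 with h4 | h4
    · linear_combination h4
    · exact absurd h4 hv0
  obtain ⟨x, hx⟩ := hφ
  have h5 := ht x
  rw [hsc, hAB, one_smul, Matrix.one_mulVec] at h5
  have h6 : φ x • v = 0 := by
    have := congrArg (fun w => w - x) h5
    simpa using this.symm
  rcases smul_eq_zero.1 h6 with h7 | h7
  · exact hx h7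
  · exact hv0 h7

variable {σ : F ≃+* F} {f : (ι → F) → (ι → F) → F} (hf : IsUnitaryForm σ f) {I : Subgroup (GL ι F)}

include hf

/-- The special unitary group is not in a tensor product subgroup. -/
theorem not_le_tensor [Finite F] (hI : ∀ g : GL ι F, IsIso f g → (g : Matrix ι ι F).det = 1 → g ∈ I)
    (hι : 3 ≤ Fintype.card ι) {n₁ n₂ : ℕ} (h1 : 2 ≤ n₁) (h2 : 2 ≤ n₂) (e : ι ≃ Fin n₁ × Fin n₂)
    (P : GL ι F) : ¬ I ≤ tensorProductSubgroup n₁ n₂ e P := by
  intro hle
  obtain ⟨a, ha0, ha⟩ := exists_trace_zero σ hf.ne_refl hf.involutive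
  obtain ⟨v, hv0, hv, -⟩ := exists_iso_perp hf hι 0
  obtain ⟨x, hx⟩ := (hf.nondegenerate v hv0).1
  refine not_mem_tensor h1 h2 e P (uT hf v a hv) (fun x => f x v * a) v ?_ ?_ ?_ hv0 ?_ ?_
    (hle (uT_mem_I hf hI v a hv ha))
  · intro c d
    simp only [hf.add_left, add_mul]
  · intro c d
    simp only [hf.smul_left, mul_assoc]
  · intro y
    rw [uT_mulVec, smul_smul]
  · simp only [hv, zero_mul]
  · exact ⟨x, mul_ne_zero hx ha0⟩

/-! ### Traces -/

theorem coe_uT (v : ι → F) (a : F) (hv : f v v = 0) :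
    ((uT hf v a hv : GL ι F) : Matrix ι ι F) = 1 + a • Ep f v := by
  apply Matrix.toLin'.injective
  apply LinearMap.ext
  intro x
  simp only [Matrix.toLin'_apply]
  rw [uT_mulVec, Matrix.add_mulVec, Matrix.one_mulVec, Matrix.smul_mulVec, Ep_mulVec hf, smul_comm]

theorem trace_vm (a b : ι → F) : Matrix.trace (Matrix.vecMulVec a (formVec f b)) = f a b := by
  rw [Matrix.trace_vecMulVec, dotProduct_comm, formVec_dotProduct hf.add_left hf.smul_left]

theorem trace_Ep (x : ι → F) : Matrix.trace (Ep f x) = f x x := trace_vm hf x x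

theorem trace_Ep2 (x y : ι → F) : Matrix.trace (Ep f x * Ep f y) = f y x * f x y := by
  rw [Ep_mul hf, Matrix.trace_smul, trace_vm hf, smul_eq_mul]

theorem trace_Ep3 (u v w : ι → F) : Matrix.trace (Ep f u * Ep f v * Ep f w) = f v u * f w v * f u w := by
  rw [Ep_mul hf, Matrix.smul_mul, Ep, E_mul_E, formVec_dotProduct hf.add_left hf.smul_left, Matrix.trace_smul,
    Matrix.trace_smul, trace_vm hf, smul_eq_mul, smul_eq_mul]
  ring

/-- The trace of a product of three transvections. -/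
theorem trace_three (u v w : ι → F) (α β γ : F) (hu : f u u = 0) (hv : f v v = 0) (hw : f w w = 0) :
    Matrix.trace (((uT hf u α hu * uT hf v β hv * uT hf w γ hw : GL ι F)) : Matrix ι ι F) =
      (Fintype.card ι : F) + α * β * (f v u * f u v) + α * γ * (f w u * f u w) + β * γ * (f w v * f v w) +
        α * β * γ * (f v u * f w v * f u w) := by
  rw [Units.val_mul, Units.val_mul, coe_uT hf, coe_uT hf, coe_uT hf]
  have hexp : (1 + α • Ep f u) * (1 + β • Ep f v) * (1 + γ • Ep f w) =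
      1 + α • Ep f u + β • Ep f v + γ • Ep f w + (α * β) • (Ep f u * Ep f v) + (α * γ) • (Ep f u * Ep f w) +
        (β * γ) • (Ep f v * Ep f w) + (α * β * γ) • (Ep f u * Ep f v * Ep f w) := by
    simp only [add_mul, mul_add, one_mul, mul_one, smul_mul_assoc, mul_smul_comm, mul_assoc]
    module
  rw [hexp]
  simp only [Matrix.trace_add, Matrix.trace_smul, Matrix.trace_one, trace_Ep hf, trace_Ep2 hf, trace_Ep3 hf, hu, hv, hw,
    smul_eq_mul, mul_zero, add_zero]

/-- A group inside a subfield subgroup, perfect: traces are in the subfield. -/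
theorem trace_mem (hperf : ⁅I, I⁆ = I) {F₀ : Subfield F} {P : GL ι F} (hle : I ≤ subfieldSubgroup F₀ P) {g : GL ι F}
    (hg : g ∈ I) : Matrix.trace (g : Matrix ι ι F) ∈ F₀ := by
  classical
  let N : Subgroup (GL ι F) := ((Matrix.GeneralLinearGroup.map (F₀.subtype : F₀ →+* F)).range).map
    (MulAut.conj P).toMonoidHom
  have h1 : I ≤ N ⊔ scalars ι F := by
    intro x hx
    obtain ⟨c, A, hA⟩ := (mem_subfieldSubgroup_iff F₀ P x).1 (hle hx)
    have h2 : x = (P * Matrix.GeneralLinearGroup.map (F₀.subtype : F₀ →+* F) A * P⁻¹) *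
        (P * Matrix.GeneralLinearGroup.scalar ι c * P⁻¹) := by
      have h3 : Matrix.GeneralLinearGroup.map (F₀.subtype : F₀ →+* F) A * Matrix.GeneralLinearGroup.scalar ι c =
          P⁻¹ * x * P := hA.symm
      calc x = P * (P⁻¹ * x * P) * P⁻¹ := by group
        _ = P * (Matrix.GeneralLinearGroup.map (F₀.subtype : F₀ →+* F) A * Matrix.GeneralLinearGroup.scalar ι c) * P⁻¹ := by rw [h3]
        _ = _ := by group
    rw [h2]
    refine Subgroup.mul_mem _ (Subgroup.mem_sup_left ⟨_, ⟨A, rfl⟩, rfl⟩) (Subgroup.mem_sup_right ?_)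
    have h3 : Matrix.GeneralLinearGroup.scalar ι c ∈ scalars ι F := ⟨c, rfl⟩
    have := (scalars_normal (ι := ι) (F := F)).conj_mem _ h3 P
    exact this
  have h2 := Cfsg.Agent.Lib.CmaxS.Gen.perfect_le hperf h1 hg
  obtain ⟨_, ⟨A, rfl⟩, hA⟩ := h2
  have h3 : (g : Matrix ι ι F) = (P : Matrix ι ι F) * (Matrix.GeneralLinearGroup.map (F₀.subtype : F₀ →+* F) A : GL ι F) *
      ((P⁻¹ : GL ι F) : Matrix ι ι F) := by
    rw [← hA]
    rfl
  rw [h3, Matrix.trace_mul_comm, ← mul_assoc, ← Units.val_mul, inv_mul_cancel, Units.val_one, one_mul]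
  simp only [Matrix.trace, Matrix.diag]
  refine F₀.sum_mem fun i _ => ?_
  exact ((A : Matrix ι ι F₀) i i).2

/-- A non-isotropic vector. -/
theorem exists_noniso [Nonempty ι] : ∃ z : ι → F, f z z ≠ 0 := by
  classical
  by_contra hcon
  push Not at hcon
  obtain ⟨i⟩ := ‹Nonempty ι›
  have hv0 : (Pi.single i 1 : ι → F) ≠ 0 := by
    intro h
    have := congrFun h i
    simp at this
  obtain ⟨x, hx⟩ := (hf.nondegenerate _ hv0).1
  set v : ι → F := Pi.single i 1
  obtain ⟨a, ha0, ha⟩ := exists_trace_zero σ hf.ne_refl hf.involutive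
  -- the trace form vanishes
  have h1 : ∀ c : F, c * f x v + σ c * f v x = 0 := by
    intro c
    have h2 := hcon (c • x + v)
    simp only [hf.add_left, UForm.add_right hf, hf.smul_left, UForm.smul_right hf, hcon x, hcon v] at h2
    linear_combination h2
  have hs : σ 1 = (1 : F) := map_one σ
  obtain ⟨b, hb⟩ := exists_add_sigma_eq σ hf.ne_refl hf.involutive 1 hs
  have h3 := h1 (b / f x v)
  have h4 : f v x = σ (f x v) := hf.herm v x
  rw [h4, ← map_mul] at h3
  have h5 : b / f x v * f x v = b := by field_simp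
  have h6 : σ (b / f x v) * σ (f x v) = σ b := by rw [← map_mul, h5]
  rw [map_mul, h6, h5] at h3
  rw [hb] at h3
  exact one_ne_zero h3

/-- A hyperbolic pair with an orthogonal non-isotropic vector. -/
theorem exists_frame3 [Finite F] (hι : 3 ≤ Fintype.card ι) :
    ∃ u w z : ι → F, f u u = 0 ∧ f w w = 0 ∧ f u w = 1 ∧ f w u = 1 ∧ f z z ≠ 0 ∧ f z u = 0 ∧ f z w = 0 := by
  haveI : Nonempty ι := by
    apply Fintype.card_pos_iff.1
    omega
  obtain ⟨z, hz⟩ := exists_noniso hf
  obtain ⟨u, hu0, huu, huz⟩ := exists_iso_perp hf hι z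
  have hzu : f z u = 0 := by rw [hf.herm, huz, map_zero]
  obtain ⟨w₀, -, h1⟩ := exists_hp hf hu0 huu
  set w₁ := w₀ + (-(f w₀ z / f z z)) • z with hw₁
  have h2 : f w₁ z = 0 := by
    rw [hw₁, hf.add_left, hf.smul_left]
    field_simp
    ring
  have h3 : f w₁ u = 1 := by
    rw [hw₁, hf.add_left, hf.smul_left, hzu, h1]
    ring
  have hs : σ (- f w₁ w₁) = - f w₁ w₁ := by
    rw [map_neg, UForm.sigma_self hf]
  obtain ⟨b, hb⟩ := exists_add_sigma_eq σ hf.ne_refl hf.involutive _ hs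
  have h4 : f u w₁ = 1 := by rw [hf.herm, h3, map_one]
  refine ⟨u, w₁ + b • u, z, huu, ?_, ?_, ?_, hz, hzu, ?_⟩
  · simp only [hf.add_left, UForm.add_right hf, hf.smul_left, UForm.smul_right hf, h3, h4, huu]
    linear_combination hb
  · rw [UForm.add_right hf, UForm.smul_right hf, h4, huu]
    ring
  · rw [hf.add_left, hf.smul_left, h3, huu]
    ring
  · rw [UForm.add_right hf, UForm.smul_right hf, hzu, hf.herm z w₁, h2, map_zero]
    ring

/-- The special unitary group is not in a subfield subgroup. -/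
theorem not_le_subfield [Finite F] (hI : ∀ g : GL ι F, IsIso f g → (g : Matrix ι ι F).det = 1 → g ∈ I)
    (hperf : ⁅I, I⁆ = I) (hι : 3 ≤ Fintype.card ι) {F₀ : Subfield F} (hF₀ : F₀ ≠ ⊤) (P : GL ι F) :
    ¬ I ≤ subfieldSubgroup F₀ P := by
  classical
  intro hle
  obtain ⟨u, w, z, huu, hww, huw, hwu, hz, hzu, hzw⟩ := exists_frame3 hf hι
  obtain ⟨a, ha0, ha⟩ := exists_trace_zero σ hf.ne_refl hf.involutive
  have hσa : σ a = -a := by linear_combination ha
  have htr := fun (p q r : ι → F) (α β γ : F) (hp : f p p = 0) (hq : f q q = 0) (hr : f r r = 0)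
      (hα : α + σ α = 0) (hβ : β + σ β = 0) (hγ : γ + σ γ = 0) =>
    trace_mem hf hperf hle (g := uT hf p α hp * uT hf q β hq * uT hf r γ hr)
      (I.mul_mem (I.mul_mem (uT_mem_I hf hI p α hp hα) (uT_mem_I hf hI q β hq hβ)) (uT_mem_I hf hI r γ hr hγ))
  have hcard : (Fintype.card ι : F) ∈ F₀ := natCast_mem F₀ _
  have hfix : ∀ s : F, σ s = s → s ∈ F₀ := by
    intro s hs
    have h1 := htr u u w a 0 (s / a) huu huu hww ha (by simp) (by
      rw [map_div₀, hs, hσa]
      field_simp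
      ring)
    rw [trace_three hf] at h1
    simp only [hwu, huw, zero_mul, mul_zero, add_zero, mul_one] at h1
    have h2 : a * (s / a) = s := by field_simp
    rw [h2] at h1
    have := F₀.sub_mem h1 hcard
    simpa using this
  apply hF₀
  rw [eq_top_iff]
  intro x _
  have ha3 : a * a * a ≠ 0 := mul_ne_zero (mul_ne_zero ha0 ha0) ha0
  set c := x / (a * a * a) with hc
  have hN : ∃ d : F, d * σ d * f z z = -(c + σ c) := by
    by_cases h0 : c + σ c = 0
    · exact ⟨0, by simp [h0]⟩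
    · have hfix1 : σ (-(c + σ c) / f z z) = -(c + σ c) / f z z := by
        rw [map_div₀, UForm.sigma_self hf, map_neg, map_add, hf.involutive]
        ring
      have hne : -(c + σ c) / f z z ≠ 0 := div_ne_zero (neg_ne_zero.2 h0) hz
      obtain ⟨d, hd⟩ := exists_mul_sigma_eq σ hf.ne_refl hf.involutive _ hfix1 hne
      refine ⟨d, ?_⟩
      rw [hd]
      field_simp
  obtain ⟨d, hd⟩ := hN
  have hzu' : f u z = 0 := by rw [hf.herm, hzu, map_zero]
  have hzw' : f w z = 0 := by rw [hf.herm, hzw, map_zero]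
  set v := u + c • w + d • z with hv
  have hvv : f v v = 0 := by
    simp only [hv, hf.add_left, UForm.add_right hf, hf.smul_left, UForm.smul_right hf, huu, hww, huw, hwu, hzu, hzw, hzu',
      hzw']
    linear_combination hd
  have hvu : f v u = c := by
    simp only [hv, hf.add_left, hf.smul_left, huu, hwu, hzu]
    ring
  have huv : f u v = σ c := by
    rw [hf.herm, hvu]
  have hwv : f w v = 1 := by
    simp only [hv, UForm.add_right hf, UForm.smul_right hf, hwu, hww, hzw']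
    ring
  have hvw : f v w = 1 := by
    rw [hf.herm, hwv, map_one]
  have h1 := htr u v w a a a huu hvv hww ha ha ha
  rw [trace_three hf] at h1
  simp only [hvu, huv, hwu, huw, hwv, hvw, mul_one] at h1
  have h2 : a * a * (c * σ c) ∈ F₀ := hfix _ (by
    rw [map_mul, map_mul, map_mul, hf.involutive, hσa]
    ring)
  have h3 : a * a ∈ F₀ := hfix _ (by
    rw [map_mul, hσa]
    ring)
  have h4 : a * a * a * c = x := by
    rw [hc]
    field_simp
  rw [h4] at h1
  have h5 := F₀.sub_mem h1 (F₀.add_mem (F₀.add_mem (F₀.add_mem hcard h2) h3) h3)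
  convert h5 using 1
  ring

end Cfsg.Agent.Lib.CmaxU.Proper2
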