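/-
The geometric classes of the special unitary groups, continued: normalisers, tensor powers, decompositions.
-/
import Cfsg.Agent.Lib.CmaxU.Proper2
import Cfsg.Agent.Lib.CmaxL.Master

set_option autoImplicit false
set_option linter.unusedSectionVars false
set_option linter.style.haveILetI false
set_option linter.unusedVariables false

namespace Cfsg.Agent.Lib.CmaxU.Proper3

open Matrix Module Cfsg Cfsg.Geo Cfsg.Agent.Lib.Geo.Basic Cfsg.Agent.Lib.Geo.UnitaryInSL Cfsg.Agent.Lib.Geo.SUGen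
open Cfsg.Agent.Lib.Geo.SUBase Cfsg.Agent.Lib.Geo.SUWitt Cfsg.Agent.Lib.Geo.Centres Cfsg.Agent.Lib.Geo.UTrans
open Cfsg.Agent.Lib.NotMax.Tensor Cfsg.Agent.Lib.CmaxU.Proper Cfsg.Agent.Lib.CmaxU.Proper2
open scoped MatrixGroups

universe u

variable {F : Type u} [Field F] [Fintype F] {n q : ℕ}

theorem mem_SU (hF : Fintype.card F = q ^ 2) (g : GL (Fin n) F) (h1 : IsIso (hermForm n F q) g)
    (h2 : (g : Matrix (Fin n) (Fin n) F).det = 1) : g ∈ GU n F q ⊓ specialLinear (Fin n) F :=
  ⟨fun u v => h1 u v, (mem_specialLinear_iff _).2 h2⟩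

/-- The special unitary group does not normalise an absolutely irreducible `r`-group of similarities. -/
theorem not_le_normalizer (hF : Fintype.card F = q ^ 2) (hn : 3 ≤ n) (hne : ¬ (n = 3 ∧ q = 2)) {r : ℕ}
    {R : Subgroup (GL (Fin n) F)} (hA : ActsAbsolutelyIrreducibly (matrixSet R)) (hr : (r : F) ≠ 0)
    (hP : IsPGroup r R) (hsim : R ≤ similarityGroup (hermForm n F q)) :
    ¬ GU n F q ⊓ specialLinear (Fin n) F ≤ subgroupNormalizer R := by
  classical
  have hf := hermForm_isUnitary n hF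
  have hI := mem_SU (n := n) hF
  have hι : 3 ≤ Fintype.card (Fin n) := by simpa using hn
  haveI : Nonempty (Fin n) := ⟨⟨0, by omega⟩⟩
  obtain ⟨a, ha0, ha⟩ := exists_trace_zero (frobEquiv hF) hf.ne_refl hf.involutive
  obtain ⟨v, hv0, hv, -⟩ := exists_iso_perp hf hι 0
  obtain ⟨x₀, hx₀⟩ := (hf.nondegenerate v hv0).1
  set t := uT hf v a hv with ht
  have htv : (t : Matrix (Fin n) (Fin n) F) *ᵥ v = v := by
    rw [ht, uT_mulVec, hv, zero_smul, add_zero]
  have htx : (t : Matrix (Fin n) (Fin n) F) *ᵥ x₀ = x₀ + (hermForm n F q x₀ v * a) • v := by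
    rw [ht, uT_mulVec, smul_smul]
  have hcmul : hermForm n F q x₀ v * a ≠ 0 := mul_ne_zero hx₀ ha0
  refine Cfsg.Agent.Lib.CmaxS.Gen.not_le_normalizer_gen
    (Cfsg.Agent.Lib.CmaxU.Simple.normal hF hn hne) (Cfsg.Agent.Lib.CmaxU.Simple.perfect hF hn hne) hA hP
    (t := t) (uT_mem_I hf hI v a hv ha) ?_ ?_ ?_ ?_
  · intro hsc
    obtain ⟨c, hc⟩ := (mem_scalars_iff _).1 hsc
    rw [hc, Matrix.smul_mulVec, Matrix.one_mulVec] at htv htx
    have hc1 : (c : F) = 1 := by
      have h3 : ((c : F) - 1) • v = 0 := by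
        rw [sub_smul, htv, one_smul, sub_self]
      rcases smul_eq_zero.1 h3 with h4 | h4
      · linear_combination h4
      · exact absurd h4 hv0
    rw [hc1, one_smul] at htx
    have h6 : (hermForm n F q x₀ v * a) • v = 0 := by
      have := congrArg (fun w => w - x₀) htx
      simpa using this.symm
    rcases smul_eq_zero.1 h6 with h7 | h7
    · exact hcmul h7
    · exact hv0 h7
  · intro k h
    have h1 := Cfsg.Agent.Lib.CmaxL.Proper2.pow_aux t htv htx (r ^ k)
    rw [h, Units.val_one, Matrix.one_mulVec] at h1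
    have h2 : (((r ^ k : ℕ) : F) * (hermForm n F q x₀ v * a)) • v = 0 := by
      have := congrArg (fun w => w - x₀) h1
      simpa using this.symm
    rcases smul_eq_zero.1 h2 with h3 | h3
    · exact (mul_ne_zero (by push_cast; exact pow_ne_zero _ hr) hcmul) h3
    · exact hv0 h3
  · intro x hx
    have h1 := uT_mem_I hf hI v a hv ha
    refine Subgroup.mul_mem _ ?_ (Subgroup.inv_mem _ h1)
    refine hI _ ?_ ?_
    · intro u w
      obtain ⟨c, hc⟩ := hsim hx
      simp only [Units.val_mul, ← Matrix.mulVec_mulVec]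
      rw [hc, uT_isIso hf v a hv ha, ← hc, mulVec_inv_mulVec, mulVec_inv_mulVec]
    · have h2 := (mem_specialLinear_iff _).1 h1.2
      rw [Units.val_mul, Units.val_mul, Matrix.det_mul, Matrix.det_mul, h2]
      have h3 : (x : Matrix (Fin n) (Fin n) F).det * ((x⁻¹ : GL (Fin n) F) : Matrix (Fin n) (Fin n) F).det = 1 := by
        rw [← Matrix.det_mul, ← Units.val_mul, mul_inv_cancel, Units.val_one, Matrix.det_one]
      rw [mul_one, h3]
  · intro x hx
    obtain ⟨w, hw0, hw1, hw2⟩ := exists_perp_pair hf hι v ((x⁻¹ : GL _ F) : Matrix _ _ F)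
    refine ⟨w, hw0, ?_⟩
    have hfix : ∀ b : Fin n → F, hermForm n F q b v = 0 → (t : Matrix _ _ F) *ᵥ b = b := by
      intro b hb
      rw [ht, uT_mulVec, hb, zero_smul, add_zero]
    have hw3 : ((t⁻¹ : GL _ F) : Matrix _ _ F) *ᵥ w = w := by
      conv_lhs => rw [← hfix w hw1]
      exact inv_mulVec_mulVec t w
    simp only [Units.val_mul, ← Matrix.mulVec_mulVec]
    rw [hw3, hfix _ hw2, mulVec_inv_mulVec]

/-- The unitary form attached to `IsUnitaryFormPow`. -/
theorem unitary_of_pow {κ : Type} [Fintype κ] [DecidableEq κ] (hF : Fintype.card F = q ^ 2)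
    {f₁ : (κ → F) → (κ → F) → F} (h : IsUnitaryFormPow q f₁) : IsUnitaryForm (frobEquiv hF) f₁ where
  ne_refl := (hermForm_isUnitary 0 hF).ne_refl
  involutive := (hermForm_isUnitary 0 hF).involutive
  add_left := h.add_left
  smul_left := h.smul_left
  herm := h.herm
  nondegenerate := h.nondegenerate

/-- A pure tensor plus a multiple of an independent one is not pure. -/
theorem not_dec_add {t m : ℕ} (ht : 2 ≤ t) {y u : Fin m → F} {a b : Fin m} (hya : y a ≠ 0) (hua : u a ≠ 0)
    (hab : y a * u b - y b * u a ≠ 0) {c : F} (hc : c ≠ 0) :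
    ¬ Cfsg.Agent.Lib.CmaxL.Proper2.Dec (fun x : Fin t → Fin m => (∏ i, y (x i)) + c * ∏ i, u (x i)) := by
  classical
  rintro ⟨zs, hzs⟩
  let c₀ : Fin t := ⟨0, by omega⟩
  let c₁ : Fin t := ⟨1, by omega⟩
  have hcc : c₁ ≠ c₀ := by simp [c₀, c₁, Fin.ext_iff]
  let X : Fin m → Fin m → Fin t → Fin m := fun α β i => if i = c₀ then α else if i = c₁ then β else a
  have hprod : ∀ (g : Fin m → F) (α β : Fin m),
      ∏ i, g (X α β i) = g α * g β * ∏ i ∈ (Finset.univ.erase c₀).erase c₁, g a := by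
    intro g α β
    rw [← Finset.mul_prod_erase Finset.univ _ (Finset.mem_univ c₀),
      ← Finset.mul_prod_erase (Finset.univ.erase c₀) _ (Finset.mem_erase.2 ⟨hcc, Finset.mem_univ _⟩)]
    have h1 : X α β c₀ = α := by simp [X]
    have h2 : X α β c₁ = β := by simp [X, hcc]
    rw [h1, h2, mul_assoc]
    congr 2
    apply Finset.prod_congr rfl
    intro i hi
    have hi1 : i ≠ c₁ := (Finset.mem_erase.1 hi).1
    have hi0 : i ≠ c₀ := (Finset.mem_erase.1 (Finset.mem_erase.1 hi).2).1
    simp [X, hi1, hi0]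
  have hexch : ∀ α β : Fin m, (∏ i, zs i (X α α i)) * (∏ i, zs i (X β β i)) = (∏ i, zs i (X α β i)) * ∏ i, zs i (X β α i) := by
    intro α β
    rw [← Finset.prod_mul_distrib, ← Finset.prod_mul_distrib]
    apply Finset.prod_congr rfl
    intro i _
    by_cases h0 : i = c₀
    · simp [X, h0]
    · by_cases h1 : i = c₁
      · simp only [X, h1, hcc, if_false, if_true]
        ring
      · simp [X, h0, h1]
  have h := hexch a b
  rw [← hzs, ← hzs, ← hzs, ← hzs] at h
  simp only [hprod] at h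
  set A := ∏ i ∈ (Finset.univ.erase c₀).erase c₁, y a with hA
  set B := ∏ i ∈ (Finset.univ.erase c₀).erase c₁, u a with hB
  have hA0 : A ≠ 0 := Finset.prod_ne_zero_iff.2 fun _ _ => hya
  have hB0 : B ≠ 0 := Finset.prod_ne_zero_iff.2 fun _ _ => hua
  have h3 : c * A * B * (y a * u b - y b * u a) ^ 2 = 0 := by
    linear_combination h
  have h4 : c * A * B ≠ 0 := mul_ne_zero (mul_ne_zero hc hA0) hB0
  exact (mul_ne_zero h4 (pow_ne_zero 2 hab)) h3

/-- The form on pure tensors. -/
theorem form_pure {ι : Type} [Fintype ι] [DecidableEq ι] {f : (ι → F) → (ι → F) → F} {k t : ℕ} {f₁ : (Fin k → F) → (Fin k → F) → F}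
    (hF : Fintype.card F = q ^ 2) (hf₁ : IsUnitaryFormPow q f₁) {e : ι ≃ (Fin t → Fin k)} {P : GL ι F} {c : F}
    (hT : ∀ x y : (Fin t → Fin k) → F,
    f ((P : Matrix ι ι F) *ᵥ (x ∘ e)) ((P : Matrix ι ι F) *ᵥ (y ∘ e)) =
      c * ∑ a, ∑ b, x a * (∏ i, gramMatrix f₁ (a i) (b i)) * (y b) ^ q) (y u : Fin k → F) :
    f ((P : Matrix ι ι F) *ᵥ ((fun x : Fin t → Fin k => ∏ i, y (x i)) ∘ e))
      ((P : Matrix ι ι F) *ᵥ ((fun x : Fin t → Fin k => ∏ i, u (x i)) ∘ e)) = c * (f₁ y u) ^ t := by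
  classical
  have hU := unitary_of_pow hF hf₁
  have h1 : ∀ a b : Fin k → F, f₁ a b = ∑ α, ∑ β, a α * gramMatrix f₁ α β * (b β) ^ q := by
    intro a b
    have := Cfsg.Agent.Lib.NotMax.Tensor.formOfGram_eq (fun x : F => x ^ q) f₁ hU.add_left hU.smul_left
      (fun v x y => UForm.add_right hU v x y) (fun c v x => UForm.smul_right hU c v x) a b
    rw [← this]
    rfl
  rw [hT, h1 y u]
  congr 1
  have h2 : (∑ α, ∑ β, y α * gramMatrix f₁ α β * u β ^ q) ^ t =
      ∏ _i : Fin t, ∑ α, ∑ β, y α * gramMatrix f₁ α β * u β ^ q := by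
    simp
  rw [h2, Finset.prod_univ_sum, Fintype.piFinset_univ]
  refine Finset.sum_congr rfl fun a _ => ?_
  rw [Finset.prod_univ_sum, Fintype.piFinset_univ]
  refine Finset.sum_congr rfl fun b _ => ?_
  rw [Finset.prod_mul_distrib, Finset.prod_mul_distrib, Finset.prod_pow]

/-- The special unitary group is not in a tensor power subgroup. -/
theorem not_le_wreath (hF : Fintype.card F = q ^ 2) (hn : 3 ≤ n) {k t : ℕ} (hk : 2 ≤ k) (ht : 2 ≤ t)
    (e : Fin n ≃ (Fin t → Fin k)) (P : GL (Fin n) F) {f₁ : (Fin k → F) → (Fin k → F) → F}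
    (hf₁ : IsUnitaryFormPow q f₁)
    (hT : IsTensorPowerFormStructure (fun x : F => x ^ q) (hermForm n F q) f₁ e P) :
    ¬ GU n F q ⊓ specialLinear (Fin n) F ≤ tensorWreathSubgroup k t e P := by
  classical
  intro hle
  have hf := hermForm_isUnitary n hF
  have hI := mem_SU (n := n) hF
  have hU := unitary_of_pow hF hf₁
  obtain ⟨c₀, hc₀, hT⟩ := hT
  obtain ⟨a₀, ha0, ha⟩ := exists_trace_zero (frobEquiv hF) hf.ne_refl hf.involutive
  -- an isotropic vector of the factor
  obtain ⟨u, -, hu0, huu⟩ := UForm.exists_isotropic hU (⊤ : Submodule F (Fin k → F)) (by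
    rw [finrank_top]
    simpa using hk)
  obtain ⟨a, hua⟩ : ∃ a, u a ≠ 0 := by
    by_contra hcon
    push Not at hcon
    exact hu0 (funext hcon)
  have hd1 : ∀ x : Fin k → F, formVec f₁ u ⬝ᵥ x = f₁ x u := fun x =>
    formVec_dotProduct hU.add_left hU.smul_left x u
  have hφ : formVec f₁ u ≠ 0 := by
    intro h
    obtain ⟨x, hx⟩ := (hU.nondegenerate u hu0).1
    apply hx
    rw [← hd1, h, zero_dotProduct]
  have hφ' : (Pi.single a 1 : Fin k → F) ≠ 0 := by
    intro h
    have := congrFun h a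
    simp at this
  obtain ⟨y, hy1, hy2⟩ := Cfsg.Agent.Lib.Classical.TransvSp.exists_off_two hφ hφ'
  rw [hd1] at hy1
  have hya : y a ≠ 0 := by simpa using hy2
  obtain ⟨b, hab⟩ : ∃ b, y a * u b - y b * u a ≠ 0 := by
    by_contra hcon
    push Not at hcon
    apply hy1
    have h1 : y = (y a / u a) • u := by
      funext b
      have := hcon b
      simp only [Pi.smul_apply, smul_eq_mul]
      field_simp
      linear_combination -this
    rw [h1, hU.smul_left, huu, mul_zero]
  -- the pure tensors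
  set Φ : ((Fin t → Fin k) → F) → (Fin n → F) := fun v => (P : Matrix _ _ F) *ᵥ (v ∘ e) with hΦ
  have hΦinj : ∀ v v', Φ v = Φ v' → v = v' := by
    intro v v' h
    have h1 := congrArg (fun w => ((P⁻¹ : GL (Fin n) F) : Matrix (Fin n) (Fin n) F) *ᵥ w) h
    simp only [hΦ, inv_mulVec_mulVec] at h1
    exact e.surjective.injective_comp_right h1
  set py : (Fin t → Fin k) → F := fun x => ∏ i, y (x i) with hpy
  set pu : (Fin t → Fin k) → F := fun x => ∏ i, u (x i) with hpu
  have hform := fun (r s : Fin k → F) => form_pure hF hf₁ (f := hermForm n F q) (e := e) (P := P) (c := c₀) hT r s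
  have hww : hermForm n F q (Φ pu) (Φ pu) = 0 := by
    rw [hform u u, huu, zero_pow (by omega), mul_zero]
  have hyw : hermForm n F q (Φ py) (Φ pu) ≠ 0 := by
    rw [hform y u]
    exact mul_ne_zero hc₀ (pow_ne_zero _ hy1)
  obtain ⟨g₀, hg₀, hgP⟩ := (Cfsg.Agent.Lib.Asch.Cl.mem_tensorWreathSubgroup_iff e P _).1
    (hle (uT_mem_I hf hI (Φ pu) a₀ hww ha))
  have hgΦ : ∀ v, ((uT hf (Φ pu) a₀ hww : GL _ F) : Matrix _ _ F) *ᵥ Φ v = Φ ((g₀ : Matrix _ _ F) *ᵥ v) := by
    intro v
    simp only [hΦ]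
    rw [Matrix.mulVec_mulVec, hgP, ← Matrix.mulVec_mulVec]
    congr 1
    ext i
    simp [Matrix.mulVec, dotProduct, Matrix.submatrix_apply]
    exact Equiv.sum_comp e (fun j => (g₀ : Matrix _ _ F) (e i) j * v j)
  set κ := hermForm n F q (Φ py) (Φ pu) * a₀ with hκ
  have hκ0 : κ ≠ 0 := mul_ne_zero hyw ha0
  have h1 : Φ ((g₀ : Matrix _ _ F) *ᵥ py) = Φ (fun x => py x + κ * pu x) := by
    rw [← hgΦ, uT_mulVec, smul_smul]
    simp only [hΦ]
    rw [← Matrix.mulVec_smul, ← Matrix.mulVec_add]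
    congr 1
  have h2 := hΦinj _ _ h1
  have hD := Cfsg.Agent.Lib.CmaxL.Proper2.dec_of_mem hg₀ py ⟨fun _ => y, fun x => rfl⟩
  rw [h2] at hD
  exact not_dec_add ht hya hua hab hκ0 hD

variable {ι : Type} [Fintype ι] [DecidableEq ι] {σ : F ≃+* F} {f : (ι → F) → (ι → F) → F}
  {I : Subgroup (GL ι F)}

/-- A vector of a one-dimensional non-degenerate subspace is non-isotropic. -/
theorem noniso_of_line (hf : IsUnitaryForm σ f) {W : Submodule F (ι → F)} (h1 : Module.finrank F W = 1)
    (hW : IsNondegenerateOn f W) {x : ι → F} (hx : x ∈ W) (hx0 : x ≠ 0) : f x x ≠ 0 := by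
  obtain ⟨⟨y, hy, hxy⟩, -⟩ := hW x hx hx0
  have hx' : (⟨x, hx⟩ : W) ≠ 0 := fun h => hx0 (congrArg Subtype.val h)
  obtain ⟨c, hc⟩ := (finrank_eq_one_iff_of_nonzero' (⟨x, hx⟩ : W) hx').1 h1 ⟨y, hy⟩
  have h2 : c • x = y := congrArg Subtype.val hc
  rw [← h2, hf.smul_left] at hxy
  intro h
  rw [h, mul_zero] at hxy
  exact hxy rfl

/-- Decompositions into non-degenerate subspaces are proper. -/
theorem not_le_decomp_nondeg (hf : IsUnitaryForm σ f) (hI : ∀ g : GL ι F, IsIso f g → (g : Matrix ι ι F).det = 1 → g ∈ I)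
    (hι : 3 ≤ Fintype.card ι) (hs : Fintype.card ι = 3 → ∃ s : F, σ s = s ∧ s ≠ 0 ∧ s ≠ 1)
    {t k : ℕ} {D : Fin t → Submodule F (ι → F)} (hD : IsNondegenerateMDecomposition f k D) :
    ¬ I ≤ decompositionStabilizer D := by
  classical
  have hcd : t * k = Fintype.card ι := Cfsg.Agent.Lib.CmaxL.Master.decomp_card hD.decomp
  have ht := hD.decomp.two_le
  have hkpos := hD.decomp.pos
  let i₀ : Fin t := ⟨0, by omega⟩
  let i₁ : Fin t := ⟨1, by omega⟩
  have h01 : i₀ ≠ i₁ := by simp [i₀, i₁, Fin.ext_iff]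
  rcases Nat.lt_or_ge k 2 with hk | hk
  · -- lines
    have hk1 : k = 1 := by omega
    subst hk1
    rw [mul_one] at hcd
    have hex : ∀ i, ∃ e ∈ D i, e ≠ 0 ∧ f e e ≠ 0 := by
      intro i
      have hne : D i ≠ ⊥ := by
        intro h
        have h1 := hD.decomp.finrank_eq i
        rw [h] at h1
        simp at h1
      obtain ⟨x, hx, hx0⟩ := Submodule.exists_mem_ne_zero_of_ne_bot hne
      exact ⟨x, hx, hx0, noniso_of_line hf (hD.decomp.finrank_eq i) (hD.nondegenerate i) hx hx0⟩
    choose e he he0 hee using hex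
    have hO : ∀ i j, i ≠ j → f (e i) (e j) = 0 := fun i j hij => hD.orthogonal i j hij _ (he i) _ (he j)
    -- the coefficients
    obtain ⟨s, ν, hν, ε, hεfix, hε0, hεsum, hs3⟩ : ∃ (s : ℕ) (ν : Fin s → Fin t) (_ : Function.Injective ν) (ε : Fin s → F),
        (∀ l, σ (ε l) = ε l) ∧ (∀ l, ε l ≠ 0) ∧ ∑ l, ε l = 0 ∧ 3 ≤ s := by
      rcases Nat.lt_or_ge t 4 with h4 | h4
      · have ht3 : t = 3 := by omega
        obtain ⟨r, hr, hr0, hr1⟩ := hs (by omega)
        refine ⟨3, fun l => ⟨l.1, by omega⟩, ?_, ![1, -r, r - 1], ?_, ?_, ?_, le_rfl⟩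
        · intro a b h
          exact Fin.ext (Fin.mk.inj_iff.1 h)
        · intro l
          fin_cases l <;> simp [hr]
        · intro l
          fin_cases l
          · simp
          · simpa using hr0
          · simpa [sub_eq_zero] using hr1
        · simp [Fin.sum_univ_three]
          ring
      · refine ⟨4, fun l => ⟨l.1, by omega⟩, ?_, ![1, -1, 1, -1], ?_, ?_, ?_, by norm_num⟩
        · intro a b h
          exact Fin.ext (Fin.mk.inj_iff.1 h)
        · intro l
          fin_cases l <;> simp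
        · intro l
          fin_cases l <;> simp
        · simp [Fin.sum_univ_four]
    have hnorm : ∀ l, ∃ c : F, c ≠ 0 ∧ c * σ c * f (e (ν l)) (e (ν l)) = ε l := by
      intro l
      have h1 : σ (ε l / f (e (ν l)) (e (ν l))) = ε l / f (e (ν l)) (e (ν l)) := by
        rw [map_div₀, UForm.sigma_self hf, hεfix]
      have h2 : ε l / f (e (ν l)) (e (ν l)) ≠ 0 := div_ne_zero (hε0 l) (hee _)
      obtain ⟨c, hc⟩ := exists_mul_sigma_eq σ hf.ne_refl hf.involutive _ h1 h2
      refine ⟨c, ?_, ?_⟩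
      · rintro rfl
        rw [zero_mul] at hc
        exact h2 hc.symm
      · rw [hc]
        have := hee (ν l)
        field_simp
    choose c hc0 hc using hnorm
    set v : ι → F := ∑ l, c l • e (ν l) with hv
    have hev : ∀ l, f (e (ν l)) v = σ (c l) * f (e (ν l)) (e (ν l)) := by
      intro l
      rw [hv, form_sum_right hf, Finset.sum_eq_single l]
      · rw [UForm.smul_right hf]
      · intro l' _ hl'
        rw [UForm.smul_right hf, hO _ _ (fun h => hl' (hν h).symm), mul_zero]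
      · simp
    have hvv : f v v = 0 := by
      conv_lhs => rw [hv]
      rw [form_sum_left hf]
      have : ∀ l ∈ Finset.univ, f (c l • e (ν l)) v = ε l := by
        intro l _
        rw [hf.smul_left, hev, ← hc l]
        ring
      rw [Finset.sum_congr rfl this, hεsum]
    have hne : ∀ l, f (e (ν l)) v ≠ 0 := by
      intro l
      rw [hev]
      exact mul_ne_zero ((map_ne_zero σ).2 (hc0 l)) (hee _)
    have hv0 : v ≠ 0 := by
      intro h
      apply hne ⟨0, by omega⟩
      rw [h]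
      exact zero_right hf _
    refine not_le_decomp_one hf hI hD.decomp hD.orthogonal hv0 hvv ?_
    intro i j
    -- among three indices one differs from both
    have hex : ∃ l : Fin s, ν l ≠ i ∧ ν l ≠ j := by
      by_contra hcon
      push Not at hcon
      let l₀ : Fin s := ⟨0, by omega⟩
      let l₁ : Fin s := ⟨1, by omega⟩
      let l₂ : Fin s := ⟨2, by omega⟩
      have h01 : ν l₀ ≠ ν l₁ := fun h => by
        have := hν h
        simp [l₀, l₁, Fin.ext_iff] at this
      have h02 : ν l₀ ≠ ν l₂ := fun h => by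
        have := hν h
        simp [l₀, l₂, Fin.ext_iff] at this
      have h12 : ν l₁ ≠ ν l₂ := fun h => by
        have := hν h
        simp [l₁, l₂, Fin.ext_iff] at this
      by_cases h0 : ν l₀ = i <;> by_cases h1 : ν l₁ = i <;> by_cases h2 : ν l₂ = i
      all_goals first
        | exact h01 (by rw [h0, h1])
        | exact h02 (by rw [h0, h2])
        | exact h12 (by rw [h1, h2])
        | skip
      all_goals
        have a0 := fun h => hcon l₀ h
        have a1 := fun h => hcon l₁ h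
        have a2 := fun h => hcon l₂ h
        first
          | exact h12 ((a1 h1).trans (a2 h2).symm)
          | exact h02 ((a0 h0).trans (a2 h2).symm)
          | exact h01 ((a0 h0).trans (a1 h1).symm)
    obtain ⟨l, hl1, hl2⟩ := hex
    exact ⟨ν l, hl1, hl2, e (ν l), he _, hne l⟩
  · -- dimension at least two
    have hd : ∀ i, 2 ≤ finrank F (D i) := fun i => by rw [hD.decomp.finrank_eq]; exact hk
    obtain ⟨x, hx, hx0, hxx⟩ := UForm.exists_isotropic hf _ (hd i₀)
    obtain ⟨y, hy, hy0, hyy⟩ := UForm.exists_isotropic hf _ (hd i₁)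
    have hxy : f x y = 0 := hD.orthogonal i₀ i₁ h01 x hx y hy
    have hyx : f y x = 0 := hD.orthogonal i₁ i₀ h01.symm y hy x hx
    have hvv : f (x + y) (x + y) = 0 := by
      rw [hf.add_left, UForm.add_right hf, UForm.add_right hf, hxx, hyy, hxy, hyx]
      simp
    refine not_le_decomp_two hf hI hk hD.decomp (v := x + y) ?_ hvv ?_
    · intro h
      have h1 : x = -y := eq_neg_of_add_eq_zero_left h
      have h2 : x ∈ D i₁ := by
        rw [h1]
        exact (D i₁).neg_mem hy
      exact hx0 (inter_zero hD.decomp h01 hx h2)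
    · intro i hi
      apply hy0
      obtain ⟨w, -, hw⟩ : ∃ w, w = i ∧ True := ⟨i, rfl, trivial⟩
      -- an element orthogonal to everything
      by_cases hi0 : i = i₀
      · subst hi0
        have h2 : y ∈ D i₀ := by
          have := (D i₀).sub_mem hi hx
          simpa using this
        exact inter_zero hD.decomp h01.symm hy h2
      · have hz : x = (x + y) + (-y) := by abel
        exfalso
        apply hx0
        have h3 : ∀ z ∈ D i, f z x = 0 := fun z hz => hD.orthogonal i i₀ hi0 z hz x hx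
        -- `x + y ∈ D i` and `i ≠ i₀`
        have h4 := h3 _ hi
        rw [hf.add_left, hxx, hyx, add_zero] at h4
        have hy' : ∃ z ∈ D i₀, f z x ≠ 0 := by
          obtain ⟨⟨z, hz1, hz2⟩, -⟩ := hD.nondegenerate i₀ x hx hx0
          exact ⟨z, hz1, hz2⟩
        obtain ⟨z, hz1, hz2⟩ := hy'
        have h5 : f z (x + y) = 0 := hD.orthogonal i₀ i (Ne.symm hi0) z hz1 _ hi
        rw [UForm.add_right hf, hD.orthogonal i₀ i₁ h01 z hz1 y hy, add_zero] at h5
        exact absurd h5 hz2

/-- A pair of complementary totally singular subspaces is proper. -/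
theorem not_le_decomp_pair (hf : IsUnitaryForm σ f) (hI : ∀ g : GL ι F, IsIso f g → (g : Matrix ι ι F).det = 1 → g ∈ I)
    {k : ℕ} (hk : 2 ≤ k) {D : Fin 2 → Submodule F (ι → F)} (hD : IsMDecomposition k D)
    (hs : ∀ i, IsTotallySingularFor f (D i)) : ¬ I ≤ decompositionStabilizer D := by
  classical
  have hne : D 0 ≠ ⊥ := by
    intro h
    have h1 := hD.finrank_eq 0
    rw [h] at h1
    simp at h1
    omega
  obtain ⟨x, hx, hx0⟩ := Submodule.exists_mem_ne_zero_of_ne_bot hne
  let L : (D 1) →ₗ[F] F :=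
    { toFun := fun w => f w.1 x
      map_add' := fun a b => hf.add_left a.1 b.1 x
      map_smul' := fun c a => hf.smul_left c a.1 x }
  have hker : LinearMap.ker L ≠ ⊥ := by
    apply LinearMap.ker_ne_bot_of_finrank_lt
    rw [hD.finrank_eq 1, Module.finrank_self]
    omega
  obtain ⟨y', hy', hy0'⟩ := Submodule.exists_mem_ne_zero_of_ne_bot hker
  have hyx : f y'.1 x = 0 := hy'
  have hy0 : y'.1 ≠ 0 := fun h => hy0' (Subtype.ext h)
  have hxy : f x y'.1 = 0 := UForm.refl hf _ _ hyx
  have h01 : (0 : Fin 2) ≠ 1 := by decide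
  have hvv : f (x + y'.1) (x + y'.1) = 0 := by
    rw [hf.add_left, UForm.add_right hf, UForm.add_right hf, hs 0 x hx x hx, hs 1 _ y'.2 _ y'.2, hxy, hyx]
    simp
  refine not_le_decomp_two hf hI hk hD (v := x + y'.1) ?_ hvv ?_
  · intro h
    have h1 : x = -y'.1 := eq_neg_of_add_eq_zero_left h
    have h2 : x ∈ D 1 := by
      rw [h1]
      exact (D 1).neg_mem y'.2
    exact hx0 (inter_zero hD h01 hx h2)
  · intro i hi
    fin_cases i
    · have h2 : y'.1 ∈ D 0 := by
        have := (D 0).sub_mem hi hx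
        simpa using this
      exact hy0 (inter_zero hD h01 h2 y'.2)
    · have h2 : x ∈ D 1 := by
        have := (D 1).sub_mem hi y'.2
        simpa using this
      exact hx0 (inter_zero hD h01 hx h2)

end Cfsg.Agent.Lib.CmaxU.Proper3
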