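/-
Maximal subgroups of the special unitary groups: the class list as a list of intersections with `SU`.
-/
import Cfsg.Agent.Lib.CmaxU.Proper3
import Cfsg.Agent.Lib.CmaxS.Master
import Cfsg.Agent.Lib.NotMax.SU2
import Cfsg.Agent.Lib.NotMax.TensorFrame

set_option autoImplicit false
set_option linter.unusedSectionVars false
set_option linter.style.haveILetI false
set_option linter.unusedVariables false

namespace Cfsg.Agent.Lib.CmaxU.Master

open Matrix Module Cfsg Cfsg.Geo Cfsg.Agent.Lib.Geo.Basic Cfsg.Agent.Lib.Geo.UnitaryInSL Cfsg.Agent.Lib.Geo.SUGen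
open Cfsg.Agent.Lib.CmaxU.Proper Cfsg.Agent.Lib.CmaxU.Proper2 Cfsg.Agent.Lib.CmaxU.Proper3
open Cfsg.Agent.Lib.CmaxS.Proper (eq_inf_of_le)
open Cfsg.Agent.Lib.CmaxS.Master (no_between)
open scoped MatrixGroups

universe u

variable {F : Type u} [Field F] [Fintype F]

/-- The main list. -/
theorem master {n q : ℕ} (hF : Fintype.card F = q ^ 2) (hn : 3 ≤ n) (hne : ¬ (n = 3 ∧ q = 2))
    (H : Subgroup (GL (Fin n) F)) (hH : IsMaximalIn (GU n F q ⊓ specialLinear (Fin n) F) H)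
    (hA : (∃ M, InUnitaryClass n F q M ∧ H ≤ M) ∨ InUnitaryResidualClass H) :
    (∃ W : Submodule F (Fin n → F), W ≠ ⊥ ∧ IsTotallySingularFor (hermForm n F q) W ∧
      H = subspaceStabilizer W ⊓ (GU n F q ⊓ specialLinear (Fin n) F)) ∨
    (∃ W : Submodule F (Fin n → F), W ≠ ⊥ ∧ IsNondegenerateOn (hermForm n F q) W ∧ 2 * Module.finrank F W < n ∧
      H = subspaceStabilizer W ⊓ (GU n F q ⊓ specialLinear (Fin n) F)) ∨
    (∃ (t k : ℕ) (D : Fin t → Submodule F (Fin n → F)), IsNondegenerateMDecomposition (hermForm n F q) k D ∧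
      t * k = n ∧ (k = 2 → 7 ≤ n → 3 ≤ q) ∧ H = decompositionStabilizer D ⊓ (GU n F q ⊓ specialLinear (Fin n) F)) ∨
    (∃ (k : ℕ) (D : Fin 2 → Submodule F (Fin n → F)), 2 * k = n ∧ IsMDecomposition k D ∧
      (∀ i, IsTotallySingularFor (hermForm n F q) (D i)) ∧
      H = decompositionStabilizer D ⊓ (GU n F q ⊓ specialLinear (Fin n) F)) ∨
    (∃ (F₀ : Subfield F) (r : ℕ) (P : GL (Fin n) F), r.Prime ∧ Odd r ∧ Fintype.card F = Nat.card F₀ ^ r ∧
      IsFormRationalStructure (hermForm n F q) F₀ 1 P ∧ H = subfieldSubgroup F₀ P ⊓ (GU n F q ⊓ specialLinear (Fin n) F)) ∨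
    (∃ (F₀ : Subfield F) (P : GL (Fin n) F), Odd q ∧ Fintype.card F = Nat.card F₀ ^ 2 ∧
      IsFormRationalStructure (hermForm n F q) F₀ 1 P ∧ H = subfieldSubgroup F₀ P ⊓ (GU n F q ⊓ specialLinear (Fin n) F)) ∨
    (∃ (F₀ : Subfield F) (P : GL (Fin n) F) (ζ : F), Even n ∧ Fintype.card F = Nat.card F₀ ^ 2 ∧ ζ ≠ 0 ∧
      ζ + ζ ^ q = 0 ∧ IsFormRationalStructure (hermForm n F q) F₀ ζ P ∧
      (∀ u : Fin n → F, (∀ i, u i ∈ F₀) → hermForm n F q ((P : Matrix (Fin n) (Fin n) F) *ᵥ u) ((P : Matrix (Fin n) (Fin n) F) *ᵥ u) = 0) ∧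
      H = subfieldSubgroup F₀ P ⊓ (GU n F q ⊓ specialLinear (Fin n) F)) ∨
    (∃ (r : ℕ) (R : Subgroup (GL (Fin n) F)) (p e k : ℕ), IsSymplecticTypeGroup r R ∧
      ActsAbsolutelyIrreducibly (matrixSet R) ∧ R ≤ similarityGroup (hermForm n F q) ∧ r ≠ p ∧
      IsMinimalFieldFor (Nat.card (Subgroup.center R)) p e F ∧ r ^ k = n ∧
      ((Odd r ∧ Nat.card (Subgroup.center R) = r ∧ 1 ≤ k ∧ Nat.card R = r ^ (1 + 2 * k)) ∨
       (r = 2 ∧ e = 2 ∧ Nat.card (Subgroup.center R) = 4 ∧ Nat.card R = 2 ^ (2 + 2 * k))) ∧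
      H = subgroupNormalizer R ⊓ (GU n F q ⊓ specialLinear (Fin n) F)) ∨
    (∃ (r : ℕ) (K : Subalgebra F (Matrix (Fin n) (Fin n) F)), r.Prime ∧ Odd r ∧ r ∣ n ∧ IsFieldSubalgebra r K ∧
      IsAdjointClosedFor (hermForm n F q) K ∧ H = subalgebraNormalizer K ⊓ (GU n F q ⊓ specialLinear (Fin n) F)) ∨
    (∃ (n₁ n₂ : ℕ) (e : Fin n ≃ Fin n₁ × Fin n₂) (P : GL (Fin n) F)
      (f₁ : (Fin n₁ → F) → (Fin n₁ → F) → F) (f₂ : (Fin n₂ → F) → (Fin n₂ → F) → F),
      2 ≤ n₁ ∧ n₁ < n₂ ∧ n₁ * n₂ = n ∧ (n₁ = 2 → 3 ≤ q) ∧ IsUnitaryFormPow q f₁ ∧ IsUnitaryFormPow q f₂ ∧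
      IsTensorFormStructure (fun x : F => x ^ q) (hermForm n F q) f₁ f₂ e P ∧
      H = tensorProductSubgroup n₁ n₂ e P ⊓ (GU n F q ⊓ specialLinear (Fin n) F)) ∨
    (∃ (k t : ℕ) (e : Fin n ≃ (Fin t → Fin k)) (P : GL (Fin n) F) (f₁ : (Fin k → F) → (Fin k → F) → F),
      3 ≤ k ∧ 2 ≤ t ∧ k ^ t = n ∧ ¬ (q = 2 ∧ k = 3) ∧ IsUnitaryFormPow q f₁ ∧
      IsTensorPowerFormStructure (fun x : F => x ^ q) (hermForm n F q) f₁ e P ∧
      H = tensorWreathSubgroup k t e P ⊓ (GU n F q ⊓ specialLinear (Fin n) F)) ∨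
    InUnitaryResidualClass H := by
  classical
  have hq2 : 2 ≤ q := Cfsg.Agent.Lib.HermCount.Field.two_le hF
  have hf := hermForm_isUnitary n hF
  have hI := mem_SU (n := n) hF
  have hι : 3 ≤ Fintype.card (Fin n) := by simpa using hn
  haveI : Nonempty (Fin n) := ⟨⟨0, by omega⟩⟩
  have hperf := Cfsg.Agent.Lib.CmaxU.Simple.perfect hF hn hne
  have hinf : ∀ {X : Subgroup (GL (Fin n) F)}, H ≤ X → ¬ GU n F q ⊓ specialLinear (Fin n) F ≤ X →
      H = X ⊓ (GU n F q ⊓ specialLinear (Fin n) F) :=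
    fun h1 h2 => eq_inf_of_le hH h1 h2
  have htrip : Fintype.card (Fin n) = 3 → ∃ s : F, (frobEquiv hF) s = s ∧ s ≠ 0 ∧ s ≠ 1 := by
    intro h3
    have hn3 : n = 3 := by simpa using h3
    have hq3 : 3 ≤ q := by
      by_contra hq
      exact hne ⟨hn3, by omega⟩
    exact Cfsg.Agent.Lib.Classical.HermBridge.exists_fixed_ne_one hF hq3
  rcases hA with ⟨M, hM, hHM⟩ | hres
  swap
  · exact Or.inr <| Or.inr <| Or.inr <| Or.inr <| Or.inr <| Or.inr <| Or.inr <| Or.inr <| Or.inr <| Or.inr <| Or.inr hres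
  rcases hM with (⟨W, h0, hW, rfl⟩ | ⟨W, h0, hW, hlt, rfl⟩ | ⟨t, k, D, hD, rfl⟩ | ⟨k, D, hk2, hD, hDs, rfl⟩ |
      ⟨F₀, r, P, hr, hro, hc, hrat, rfl⟩ | ⟨F₀, P, hodd, hc, hrat, rfl⟩ | ⟨F₀, P, ζ, hev, hc, hζ, hζq, hrat, hzero, rfl⟩ |
      ⟨r, R, p, e, k, hR, hRA, hRs, hrp, hmin, halts, rfl⟩) |
      ⟨r, K, hr, hro, hK, hcl, rfl⟩ |
      ⟨n₁, n₂, e, P, f₁, f₂, hn₁, hn₂, hf₁, hf₂, hT, rfl⟩ | ⟨k, t, e, P, f₁, hk, ht, hex, hf₁, hT, rfl⟩
  · -- totally singular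
    refine Or.inl ⟨W, h0, hW, hinf (hHM.trans inf_le_left) (not_le_subspace hf hI hι h0 ?_)⟩
    rintro rfl
    obtain ⟨v, hv⟩ : ∃ v : Fin n → F, v ≠ 0 := by
      refine ⟨Pi.single ⟨0, by omega⟩ 1, ?_⟩
      intro h
      have := congrFun h ⟨0, by omega⟩
      simp at this
    obtain ⟨x, hx⟩ := (hf.nondegenerate v hv).1
    exact hx (hW x trivial v trivial)
  · -- non-degenerate
    refine Or.inr <| Or.inl ⟨W, h0, hW, hlt, hinf (hHM.trans inf_le_left) (not_le_subspace hf hI hι h0 ?_)⟩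
    rintro rfl
    rw [finrank_top, Module.finrank_fin_fun] at hlt
    omega
  · -- decomposition into non-degenerate subspaces
    have hE : H = decompositionStabilizer D ⊓ (GU n F q ⊓ specialLinear (Fin n) F) :=
      hinf (hHM.trans inf_le_left) (not_le_decomp_nondeg hf hI hι htrip hD)
    have hcd : t * k = n := by
      have := Cfsg.Agent.Lib.CmaxL.Master.decomp_card hD.decomp
      simpa using this
    refine Or.inr <| Or.inr <| Or.inl ⟨t, k, D, hD, hcd, ?_, hE⟩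
    intro hk2 hn7
    subst hk2
    by_contra hq3
    have hq : q = 2 := by omega
    subst hq
    exact no_between hH hE (Cfsg.Agent.Lib.NotMax.SU2.decomp_not_maximal (by rw [hF]; norm_num) hn7 hD)
  · -- a pair of totally singular subspaces
    exact Or.inr <| Or.inr <| Or.inr <| Or.inl ⟨k, D, hk2, hD, hDs,
      hinf (hHM.trans inf_le_left) (not_le_decomp_pair hf hI (by omega) hD hDs)⟩
  · -- subfields of odd index
    have hF₀ := Cfsg.Agent.Lib.CmaxL.Master.subfield_ne_top hr hc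
    exact Or.inr <| Or.inr <| Or.inr <| Or.inr <| Or.inl
      ⟨F₀, r, P, hr, hro, hc, hrat, hinf (hHM.trans inf_le_left) (not_le_subfield hf hI hperf hι hF₀ P)⟩
  · -- subfields of index two, orthogonal
    have hF₀ := Cfsg.Agent.Lib.CmaxL.Master.subfield_ne_top Nat.prime_two hc
    exact Or.inr <| Or.inr <| Or.inr <| Or.inr <| Or.inr <| Or.inl
      ⟨F₀, P, hodd, hc, hrat, hinf (hHM.trans inf_le_left) (not_le_subfield hf hI hperf hι hF₀ P)⟩
  · -- subfields of index two, symplectic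
    have hF₀ := Cfsg.Agent.Lib.CmaxL.Master.subfield_ne_top Nat.prime_two hc
    exact Or.inr <| Or.inr <| Or.inr <| Or.inr <| Or.inr <| Or.inr <| Or.inl
      ⟨F₀, P, ζ, hev, hc, hζ, hζq, hrat, hzero, hinf (hHM.trans inf_le_left) (not_le_subfield hf hI hperf hι hF₀ P)⟩
  · -- class 6
    obtain ⟨hpp, hcp, hE', hz, hm⟩ := hmin
    have hrF : (r : F) ≠ 0 := by
      intro h
      have h1 := (CharP.cast_eq_zero_iff F p r).1 h
      exact hrp ((Nat.prime_dvd_prime_iff_eq hpp hR.prime).1 h1).symm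
    have hE : H = subgroupNormalizer R ⊓ (GU n F q ⊓ specialLinear (Fin n) F) :=
      hinf (hHM.trans inf_le_left) (not_le_normalizer hF hn hne hRA hrF hR.pGroup hRs)
    have hcardn : Fintype.card (Fin n) = n := by simp
    have hrk : r ^ k = n := by
      rcases halts with ⟨hodd, hZ, hk1, hc⟩ | ⟨rfl, -, hZ, hc⟩
      · have h1 := Cfsg.Agent.Lib.CmaxU.Card.card_of_odd hR hodd hRA
        rw [hc, hZ, hcardn] at h1
        have hr0 : 0 < r := hR.prime.pos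
        have h3 : r ^ (1 + 2 * k) = r * (r ^ k) ^ 2 := by ring
        rw [h3] at h1
        have h2 : (r ^ k) ^ 2 = n ^ 2 := Nat.eq_of_mul_eq_mul_left hr0 h1
        exact (Nat.pow_left_injective (n := 2) (by norm_num)) h2
      · have h1 := Cfsg.Agent.Lib.CmaxU.Card.card_of_two hR hRA (by rw [hZ]; decide)
        rw [hc, hZ, hcardn] at h1
        have h3 : 2 ^ (2 + 2 * k) = 4 * (2 ^ k) ^ 2 := by ring
        rw [h3] at h1
        have h2 : (2 ^ k) ^ 2 = n ^ 2 := by omega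
        exact (Nat.pow_left_injective (n := 2) (by norm_num)) h2
    exact Or.inr <| Or.inr <| Or.inr <| Or.inr <| Or.inr <| Or.inr <| Or.inr <| Or.inl
      ⟨r, R, p, e, k, hR, hRA, hRs, hrp, ⟨hpp, hcp, hE', hz, hm⟩, hrk, halts, hE⟩
  · -- fields
    have h1 := Cfsg.Agent.Lib.Asch.MaxSN.field_dvd hK
    rw [Fintype.card_fin] at h1
    exact Or.inr <| Or.inr <| Or.inr <| Or.inr <| Or.inr <| Or.inr <| Or.inr <| Or.inr <| Or.inl
      ⟨r, K, hr, hro, h1, hK, hcl, hinf (hHM.trans inf_le_left) (not_le_field hf hI hr.two_le hK hι)⟩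
  · -- tensor products
    have hcn : n₁ * n₂ = n := by
      have := Fintype.card_congr e
      simpa using this.symm
    have hE : H = tensorProductSubgroup n₁ n₂ e P ⊓ (GU n F q ⊓ specialLinear (Fin n) F) :=
      hinf (hHM.trans inf_le_left) (not_le_tensor hf hI hι hn₁ (by omega) e P)
    refine Or.inr <| Or.inr <| Or.inr <| Or.inr <| Or.inr <| Or.inr <| Or.inr <| Or.inr <| Or.inr <| Or.inl
      ⟨n₁, n₂, e, P, f₁, f₂, hn₁, hn₂, hcn, ?_, hf₁, hf₂, hT, hE⟩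
    intro h3
    subst h3
    by_contra hq3
    have hq : q = 2 := by omega
    subst hq
    exact no_between hH hE (Cfsg.Agent.Lib.NotMax.Tensor.q2_tensor_su (by rw [hF]; norm_num) (by omega) e P hf₁ hf₂ hT)
  · -- tensor powers
    have hcn : k ^ t = n := by
      have := Fintype.card_congr e
      simpa using this.symm
    exact Or.inr <| Or.inr <| Or.inr <| Or.inr <| Or.inr <| Or.inr <| Or.inr <| Or.inr <| Or.inr <| Or.inr <| Or.inl
      ⟨k, t, e, P, f₁, hk, ht, hcn, hex, hf₁, hT,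
        hinf (hHM.trans inf_le_left) (not_le_wreath hF hn (by omega) ht e P hf₁ hT)⟩

end Cfsg.Agent.Lib.CmaxU.Master
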