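/-
Small arithmetic for the statements on `SU_n(q)`, `n ≤ 12`.
-/
import Cfsg.Agent.Lib.CmaxU.Master
import Cfsg.Agent.Lib.CmaxL.Arith

set_option autoImplicit false
set_option linter.unusedVariables false
set_option linter.unusedTactic false
set_option linter.unreachableTactic false
set_option linter.unnecessarySeqFocus false
set_option linter.style.haveILetI false

namespace Cfsg.Agent.Lib.CmaxU.Arith

open Matrix Module Cfsg Cfsg.Geo Cfsg.Agent.Lib.Geo.Basic
open scoped MatrixGroups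

universe u

theorem arith3 {x e : ℕ} (hx : x < 3) (hx0 : x ≠ 0) (he : e < 3) (h1 : Even e) (he0 : 0 < e) (h2 : x ^ e % 3 = 1)
    (h3 : ∀ d, 0 < d → d < e → x ^ d % 3 ≠ 1) : e = 2 ∧ x = 2 := by
  have h1' : e % 2 = 0 := Nat.even_iff.mp h1
  have h31 := h3 1
  clear h3 h1
  interval_cases x <;> interval_cases e <;> simp_all

theorem arith5 {x e : ℕ} (hx : x < 5) (hx0 : x ≠ 0) (he : e < 5) (h1 : Even e) (he0 : 0 < e) (h2 : x ^ e % 5 = 1)
    (h3 : ∀ d, 0 < d → d < e → x ^ d % 5 ≠ 1) : (e = 2 ∧ x = 4) ∨ (e = 4 ∧ (x = 2 ∨ x = 3)) := by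
  have h1' : e % 2 = 0 := Nat.even_iff.mp h1
  have h31 := h3 1
  have h32 := h3 2
  clear h3 h1
  interval_cases x <;> interval_cases e <;> simp_all

theorem arith7 {x e : ℕ} (hx : x < 7) (hx0 : x ≠ 0) (he : e < 7) (h1 : Even e) (he0 : 0 < e) (h2 : x ^ e % 7 = 1)
    (h3 : ∀ d, 0 < d → d < e → x ^ d % 7 ≠ 1) : (e = 2 ∧ x = 6) ∨ (e = 6 ∧ (x = 3 ∨ x = 5)) := by
  have h1' : e % 2 = 0 := Nat.even_iff.mp h1
  have h31 := h3 1
  have h32 := h3 2
  have h33 := h3 3
  clear h3 h1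
  interval_cases x <;> interval_cases e <;> simp_all

theorem arith11 {x e : ℕ} (hx : x < 11) (hx0 : x ≠ 0) (he : e < 11) (h1 : Even e) (he0 : 0 < e) (h2 : x ^ e % 11 = 1)
    (h3 : ∀ d, 0 < d → d < e → x ^ d % 11 ≠ 1) : (e = 2 ∧ x = 10) ∨ (e = 10 ∧ (x = 2 ∨ x = 6 ∨ x = 7 ∨ x = 8)) := by
  have h1' : e % 2 = 0 := Nat.even_iff.mp h1
  have h31 := h3 1
  have h32 := h3 2
  have h34 := h3 4
  have h35 := h3 5
  clear h3 h1
  interval_cases x <;> interval_cases e <;> simp_all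

/-- Prime values of `r ^ k`. -/
theorem rk_prime {s r k : ℕ} (hs : s.Prime) (hr : r.Prime) (h : r ^ k = s) : r = s ∧ k = 1 := by
  have hk : k ≠ 0 := by
    rintro rfl
    rw [pow_zero] at h
    exact hs.one_lt.ne h
  have h1 : r = s := (Nat.prime_dvd_prime_iff_eq hr hs).1 (h ▸ dvd_pow_self r hk)
  subst h1
  refine ⟨rfl, ?_⟩
  have : r ^ k = r ^ 1 := by rw [h, pow_one]
  exact Nat.pow_right_injective hs.two_le this

theorem rk_bound {r k n : ℕ} (hr : r.Prime) (h : r ^ k = n) (hn1 : 1 < n) (hn : n ≤ 12) : r ≤ 12 ∧ k ≤ 3 := by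
  have h2 := hr.two_le
  have hk : k ≤ 3 := by
    by_contra hk
    have h3 : 4 ≤ k := by omega
    have : 2 ^ 4 ≤ r ^ k := le_trans (Nat.pow_le_pow_right (by omega) h3) (Nat.pow_le_pow_left h2 k)
    omega
  refine ⟨?_, hk⟩
  have hk0 : k ≠ 0 := by
    rintro rfl
    rw [pow_zero] at h
    omega
  have h5 : r ^ 1 ≤ r ^ k := Nat.pow_le_pow_right hr.pos (by omega)
  rw [pow_one] at h5
  omega

theorem rk_four {r k : ℕ} (hr : r.Prime) (h : r ^ k = 4) : r = 2 ∧ k = 2 := by
  obtain ⟨h1, h2⟩ := rk_bound hr h (by norm_num) (by norm_num)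
  interval_cases k <;> interval_cases r <;> first | (norm_num at hr; done) | (norm_num at h; done) | exact ⟨rfl, rfl⟩

theorem rk_eight {r k : ℕ} (hr : r.Prime) (h : r ^ k = 8) : r = 2 ∧ k = 3 := by
  obtain ⟨h1, h2⟩ := rk_bound hr h (by norm_num) (by norm_num)
  interval_cases k <;> interval_cases r <;> first | (norm_num at hr; done) | (norm_num at h; done) | exact ⟨rfl, rfl⟩

theorem rk_nine {r k : ℕ} (hr : r.Prime) (h : r ^ k = 9) : r = 3 ∧ k = 2 := by
  obtain ⟨h1, h2⟩ := rk_bound hr h (by norm_num) (by norm_num)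
  interval_cases k <;> interval_cases r <;> first | (norm_num at hr; done) | (norm_num at h; done) | exact ⟨rfl, rfl⟩

theorem rk_six {r k : ℕ} (hr : r.Prime) (h : r ^ k = 6) : False := by
  obtain ⟨h1, h2⟩ := rk_bound hr h (by norm_num) (by norm_num)
  interval_cases k <;> interval_cases r <;> first | (norm_num at hr; done) | (norm_num at h; done)

theorem rk_ten {r k : ℕ} (hr : r.Prime) (h : r ^ k = 10) : False := by
  obtain ⟨h1, h2⟩ := rk_bound hr h (by norm_num) (by norm_num)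
  interval_cases k <;> interval_cases r <;> first | (norm_num at hr; done) | (norm_num at h; done)

theorem rk_twelve {r k : ℕ} (hr : r.Prime) (h : r ^ k = 12) : False := by
  obtain ⟨h1, h2⟩ := rk_bound hr h (by norm_num) (by norm_num)
  interval_cases k <;> interval_cases r <;> first | (norm_num at hr; done) | (norm_num at h; done)

variable {F : Type u} [Field F] [Fintype F] {q : ℕ}

/-- The data of a class-6 subgroup, for odd `r`. -/
theorem odd_data (hF : Fintype.card F = q ^ 2) {r p e : ℕ} (hr : r.Prime) (hrp : r ≠ p) (hmin : IsMinimalFieldFor r p e F) :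
    ∃ d : ℕ, p.Prime ∧ CharP F p ∧ q = p ^ d ∧ e = 2 * d ∧ 0 < d ∧ p % r ≠ 0 ∧ e < r ∧ ¬ r ∣ q - 1 ∧
      (p % r) ^ e % r = 1 ∧ ∀ d', 0 < d' → d' < e → (p % r) ^ d' % r ≠ 1 := by
  obtain ⟨hp, hc, hq, hz, hmin⟩ := hmin
  have hr2 := hr.two_le
  have hq2 : 2 ≤ q := Cfsg.Agent.Lib.HermCount.Field.two_le hF
  have hp0 : p % r ≠ 0 := by
    intro h
    have h1 := Nat.dvd_of_mod_eq_zero h
    exact hrp ((Nat.prime_dvd_prime_iff_eq hr hp).1 h1)
  have hpow : ∀ d, 0 < d → (r ∣ p ^ d - 1 ↔ (p % r) ^ d % r = 1) := by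
    intro d hd
    rw [Cfsg.Agent.Lib.CmaxL.Master.dvd_sub_one_iff hr2 (Nat.one_le_pow _ _ hp.pos), Nat.pow_mod]
  have hqe : q ^ 2 = p ^ e := by rw [← hF, hq]
  obtain ⟨d, -, hd⟩ := (Nat.dvd_prime_pow hp).1 (show q ∣ p ^ e from ⟨q, by rw [← hqe, sq]⟩)
  subst hd
  have he : e = 2 * d := by
    rw [← pow_mul] at hqe
    have := Nat.pow_right_injective hp.two_le hqe
    omega
  have hd0 : 0 < d := by
    rcases Nat.eq_zero_or_pos d with h | h
    · subst h
      simp at hq2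
    · exact h
  have he0 : 0 < e := by omega
  refine ⟨d, hp, hc, rfl, he, hd0, hp0, ?_, hmin d hd0 (by omega), (hpow e he0).1 hz,
    fun d' hd' hde h => hmin d' hd' hde ((hpow d' hd').2 h)⟩
  by_contra hcon
  have hne : r - 1 ≠ 0 := by omega
  refine hmin (r - 1) (by omega) (by omega) ?_
  haveI : Fact r.Prime := ⟨hr⟩
  have h1 : (p : ZMod r) ^ (r - 1) = 1 := ZMod.pow_card_sub_one_eq_one (by
    intro h
    exact hp0 ((ZMod.natCast_eq_zero_iff _ _).1 h |> Nat.mod_eq_zero_of_dvd))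
  have h2 : ((p ^ (r - 1) : ℕ) : ZMod r) = ((1 : ℕ) : ZMod r) := by
    push_cast
    exact h1
  have h3 := (ZMod.natCast_eq_natCast_iff _ _ _).1 h2
  exact (Nat.modEq_iff_dvd' (Nat.one_le_pow _ _ hp.pos)).1 h3.symm

/-- The data of a class-6 subgroup, for `r = 2`. -/
theorem two_data (hF : Fintype.card F = q ^ 2) {p e : ℕ} (hrp : 2 ≠ p) (he : e = 2) (hmin : IsMinimalFieldFor 4 p e F) :
    p.Prime ∧ q = p ∧ p % 4 = 3 := by
  subst he
  obtain ⟨hp, hc, hq, hz, hmin⟩ := hmin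
  have hqe : q ^ 2 = p ^ 2 := by rw [← hF, hq]
  have hqp : q = p := (Nat.pow_left_injective (n := 2) (by norm_num)) hqe
  refine ⟨hp, hqp, ?_⟩
  have h1 := hmin 1 (by norm_num) (by norm_num)
  rw [pow_one] at h1
  have h2 : p % 2 = 1 := by
    rcases hp.eq_two_or_odd with h | h
    · exact absurd h.symm hrp
    · exact h
  have hp1 := hp.pos
  have h3 : p % 4 = 1 ∨ p % 4 = 3 := by omega
  rcases h3 with h3 | h3
  · exfalso
    apply h1
    omega
  · exact h3

/-- An `r`-group of similarities is unitary when `r` does not divide `q - 1`. -/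
theorem le_GU {n : ℕ} (hF : Fintype.card F = q ^ 2) (hn : 0 < n) {r : ℕ} (hr : r.Prime) (hne : ¬ r ∣ q - 1)
    {R : Subgroup (GL (Fin n) F)} (hP : IsPGroup r R) (hsim : R ≤ similarityGroup (hermForm n F q)) : R ≤ GU n F q := by
  classical
  have hf := Cfsg.Agent.Lib.Geo.SUGen.hermForm_isUnitary n hF
  haveI : Nonempty (Fin n) := ⟨⟨0, hn⟩⟩
  obtain ⟨u, hu⟩ := Cfsg.Agent.Lib.CmaxU.Proper2.exists_noniso hf
  intro x hx
  obtain ⟨c, hc⟩ := hsim hx
  have hc1 : c = 1 := by
    have hq2 : 2 ≤ q := Cfsg.Agent.Lib.HermCount.Field.two_le hF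
    have hσ : (c : F) ^ q = c := by
      have h1 := hc u u
      have h2 : ((c : F) * hermForm n F q u u) ^ q = (c : F) * hermForm n F q u u := by
        rw [← h1]
        have := hf.herm ((x : Matrix _ _ F) *ᵥ u) ((x : Matrix _ _ F) *ᵥ u)
        exact this.symm
      have h3 : (hermForm n F q u u) ^ q = hermForm n F q u u := (hf.herm u u).symm
      rw [mul_pow, h3] at h2
      exact mul_right_cancel₀ hu h2
    have h1 : c ^ (q - 1) = 1 := by
      apply Units.ext
      rw [Units.val_pow_eq_pow_val, Units.val_one]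
      have h2 : (c : F) ^ (q - 1) * c = 1 * c := by
        rw [← pow_succ, one_mul]
        have : q - 1 + 1 = q := by omega
        rw [this, hσ]
      exact mul_right_cancel₀ c.ne_zero h2
    obtain ⟨m, hm⟩ := hP ⟨x, hx⟩
    have hxm : x ^ (r ^ m) = 1 := by
      have := congrArg Subtype.val hm
      simpa using this
    have hpow : ∀ k : ℕ, ∀ a b, hermForm n F q (((x ^ k : GL _ F) : Matrix _ _ F) *ᵥ a) (((x ^ k : GL _ F) : Matrix _ _ F) *ᵥ b) =
        ((c : F) ^ k) * hermForm n F q a b := by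
      intro k
      induction k with
      | zero => simp
      | succ k ih =>
        intro a b
        rw [pow_succ, Units.val_mul, ← Matrix.mulVec_mulVec, ← Matrix.mulVec_mulVec, ih, hc, pow_succ]
        ring
    have h2 : c ^ (r ^ m) = 1 := by
      apply Units.ext
      rw [Units.val_pow_eq_pow_val, Units.val_one]
      have h3 := hpow (r ^ m) u u
      rw [hxm, Units.val_one, Matrix.one_mulVec] at h3
      have h4 : (1 : F) * hermForm n F q u u = (c : F) ^ (r ^ m) * hermForm n F q u u := by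
        rw [one_mul]
        exact h3
      exact (mul_right_cancel₀ hu h4).symm
    have h3 := orderOf_dvd_of_pow_eq_one h1
    have h4 := orderOf_dvd_of_pow_eq_one h2
    have hcop : Nat.Coprime (r ^ m) (q - 1) := Nat.Coprime.pow_left m ((Nat.Prime.coprime_iff_not_dvd hr).2 hne)
    have h5 : orderOf c = 1 := Nat.eq_one_of_dvd_coprimes hcop h4 h3
    exact orderOf_eq_one_iff.1 h5
  rw [Cfsg.Agent.Lib.Geo.Basic.mem_GU_iff]
  intro a b
  rw [hc, hc1]
  simp

end Cfsg.Agent.Lib.CmaxU.Arith
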