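/-
The list of maximal subgroups of `SU_n(q)`, small `n`, given Aschbacher's theorem for the unitary groups.
-/
import Cfsg.Agent.Lib.CmaxU.Master
import Cfsg.Agent.Lib.CmaxU.Arith

set_option autoImplicit false
set_option linter.unusedVariables false
set_option maxHeartbeats 1000000

namespace Cfsg.Agent.Lib.CmaxU.Rows

universe u_1

theorem s5811  {F : Type*} [Field F] [Fintype F] (q : ℕ) (hF : Fintype.card F = q ^ 2) (H : Subgroup (Matrix.GeneralLinearGroup (Fin 7) F)) (hH : Cfsg.Geo.IsMaximalIn (Cfsg.GU 7 F q ⊓ Cfsg.Geo.specialLinear (Fin 7) F) H)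
    (hA : (∃ M, Cfsg.Geo.InUnitaryClass 7 F q M ∧ H ≤ M) ∨ Cfsg.Geo.InUnitaryResidualClass H) :
    (∃ W : Submodule F (Fin 7 → F), W ≠ ⊥ ∧ Cfsg.Geo.IsTotallySingularFor (Cfsg.hermForm 7 F q) W ∧ H = Cfsg.Geo.subspaceStabilizer W ⊓ (Cfsg.GU 7 F q ⊓ Cfsg.Geo.specialLinear (Fin 7) F)) ∨
    (∃ W : Submodule F (Fin 7 → F), W ≠ ⊥ ∧ Cfsg.Geo.IsNondegenerateOn (Cfsg.hermForm 7 F q) W ∧ 2 * Module.finrank F W < 7 ∧ H = Cfsg.Geo.subspaceStabilizer W ⊓ (Cfsg.GU 7 F q ⊓ Cfsg.Geo.specialLinear (Fin 7) F)) ∨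
    (∃ D : Fin 7 → Submodule F (Fin 7 → F), Cfsg.Geo.IsNondegenerateMDecomposition (Cfsg.hermForm 7 F q) 1 D ∧ H = Cfsg.Geo.decompositionStabilizer D ⊓ (Cfsg.GU 7 F q ⊓ Cfsg.Geo.specialLinear (Fin 7) F)) ∨
    (∃ K : Subalgebra F (Matrix (Fin 7) (Fin 7) F), Cfsg.Geo.IsFieldSubalgebra 7 K ∧ Cfsg.Geo.IsAdjointClosedFor (Cfsg.hermForm 7 F q) K ∧ H = Cfsg.Geo.subalgebraNormalizer K ⊓ (Cfsg.GU 7 F q ⊓ Cfsg.Geo.specialLinear (Fin 7) F)) ∨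
    (∃ (F₀ : Subfield F) (r : ℕ) (P : Matrix.GeneralLinearGroup (Fin 7) F), r.Prime ∧ Odd r ∧ Fintype.card F = Nat.card F₀ ^ r ∧ Cfsg.Geo.IsFormRationalStructure (Cfsg.hermForm 7 F q) F₀ 1 P ∧ H = Cfsg.Geo.subfieldSubgroup F₀ P ⊓ (Cfsg.GU 7 F q ⊓ Cfsg.Geo.specialLinear (Fin 7) F)) ∨
    (Odd q ∧ ∃ (F₀ : Subfield F) (P : Matrix.GeneralLinearGroup (Fin 7) F), Fintype.card F = Nat.card F₀ ^ 2 ∧ Cfsg.Geo.IsFormRationalStructure (Cfsg.hermForm 7 F q) F₀ 1 P ∧ H = Cfsg.Geo.subfieldSubgroup F₀ P ⊓ (Cfsg.GU 7 F q ⊓ Cfsg.Geo.specialLinear (Fin 7) F)) ∨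
    (∃ (p : ℕ) (R : Subgroup (Matrix.GeneralLinearGroup (Fin 7) F)), p.Prime ∧ CharP F p ∧ ((q = p ∧ p % 7 = 6) ∨ (q = p ^ 3 ∧ (p % 7 = 3 ∨ p % 7 = 5))) ∧ Cfsg.Geo.IsSymplecticTypeGroup 7 R ∧ Cfsg.Geo.ActsAbsolutelyIrreducibly (Cfsg.Geo.matrixSet R) ∧ R ≤ Cfsg.Geo.similarityGroup (Cfsg.hermForm 7 F q) ∧ Nat.card R = 343 ∧ Nat.card (Subgroup.center R) = 7 ∧ H = Cfsg.Geo.subgroupNormalizer R ⊓ (Cfsg.GU 7 F q ⊓ Cfsg.Geo.specialLinear (Fin 7) F)) ∨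
    Cfsg.Geo.InUnitaryResidualClass H := by
  rcases Cfsg.Agent.Lib.CmaxU.Master.master hF (by norm_num) (by omega) H hH hA with
    ⟨W, h0, hW, hE⟩ | ⟨W, h0, hW, hlt, hE⟩ | ⟨t, k, D, hD, htk, hk2, hE⟩ | ⟨k, D, hk2, hD, hDs, hE⟩ |
    ⟨F₀, r, P, hr, hro, hc, hrat, hE⟩ | ⟨F₀, P, hodd, hc, hrat, hE⟩ | ⟨F₀, P, ζ, hev, hc, hζ, hζq, hrat, hzero, hE⟩ |
    ⟨r, R, p, e, k, hR, hRA, hRs, hrp, hmin, hrk, halts, hE⟩ | ⟨r, K, hr, hro, hrn, hK, hcl, hE⟩ |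
    ⟨n₁, n₂, e, P, f₁, f₂, hn₁, hn₂, hcn, hq3, hf₁, hf₂, hT, hE⟩ | ⟨k, t, e, P, f₁, hk, ht, hcn, hex, hf₁, hT, hE⟩ | hres
  · exact Or.inl ⟨W, h0, hW, hE⟩
  · exact Or.inr <| Or.inl ⟨W, h0, hW, hlt, hE⟩
  · obtain ⟨rfl, rfl⟩ := Cfsg.Agent.Lib.CmaxL.Arith.tm7 hD.decomp.two_le hD.decomp.pos htk
    exact Or.inr <| Or.inr <| Or.inl ⟨D, hD, hE⟩
  · omega
  · exact Or.inr <| Or.inr <| Or.inr <| Or.inr <| Or.inl ⟨F₀, r, P, hr, hro, hc, hrat, hE⟩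
  · exact Or.inr <| Or.inr <| Or.inr <| Or.inr <| Or.inr <| Or.inl ⟨hodd, F₀, P, hc, hrat, hE⟩
  · exact absurd hev (by decide)
  · obtain ⟨rfl, rfl⟩ := Cfsg.Agent.Lib.CmaxU.Arith.rk_prime (by norm_num) hR.prime hrk
    rcases halts with ⟨hro, hZ, hk1, hcR⟩ | ⟨h2, -⟩
    · rw [hZ] at hmin
      obtain ⟨d, hp, hcp, hqd, hed, hd0, hp0, hlt, hnd, hpw, hmn⟩ := Cfsg.Agent.Lib.CmaxU.Arith.odd_data hF hR.prime hrp hmin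
      rcases Cfsg.Agent.Lib.CmaxU.Arith.arith7 (Nat.mod_lt _ (by norm_num)) hp0 hlt ⟨d, by omega⟩ (by omega) hpw hmn with ⟨he, hx⟩ | ⟨he, hx⟩
      · obtain rfl : d = 1 := by omega
        exact Or.inr <| Or.inr <| Or.inr <| Or.inr <| Or.inr <| Or.inr <| Or.inl ⟨p, R, hp, hcp, Or.inl ⟨by simpa using hqd, hx⟩, hR, hRA, hRs, by rw [hcR]; norm_num, hZ, hE⟩
      · obtain rfl : d = 3 := by omega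
        exact Or.inr <| Or.inr <| Or.inr <| Or.inr <| Or.inr <| Or.inr <| Or.inl ⟨p, R, hp, hcp, Or.inr ⟨hqd, hx⟩, hR, hRA, hRs, by rw [hcR]; norm_num, hZ, hE⟩
    · omega
  · obtain rfl := Cfsg.Agent.Lib.CmaxL.Arith.pr7 hr hrn
    exact Or.inr <| Or.inr <| Or.inr <| Or.inl ⟨K, hK, hcl, hE⟩
  · exact (Cfsg.Agent.Lib.CmaxL.Arith.ten7 hn₁ hn₂ hcn).elim
  · have := Cfsg.Agent.Lib.CmaxL.Arith.pow_lower hk ht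
    omega
  · exact Or.inr <| Or.inr <| Or.inr <| Or.inr <| Or.inr <| Or.inr <| Or.inr <| hres

theorem s5820  {F : Type*} [Field F] [Fintype F] (q : ℕ) (hF : Fintype.card F = q ^ 2) (H : Subgroup (Matrix.GeneralLinearGroup (Fin 8) F)) (hH : Cfsg.Geo.IsMaximalIn (Cfsg.GU 8 F q ⊓ Cfsg.Geo.specialLinear (Fin 8) F) H)
    (hA : (∃ M, Cfsg.Geo.InUnitaryClass 8 F q M ∧ H ≤ M) ∨ Cfsg.Geo.InUnitaryResidualClass H) :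
    (∃ W : Submodule F (Fin 8 → F), W ≠ ⊥ ∧ Cfsg.Geo.IsTotallySingularFor (Cfsg.hermForm 8 F q) W ∧ H = Cfsg.Geo.subspaceStabilizer W ⊓ (Cfsg.GU 8 F q ⊓ Cfsg.Geo.specialLinear (Fin 8) F)) ∨
    (∃ W : Submodule F (Fin 8 → F), W ≠ ⊥ ∧ Cfsg.Geo.IsNondegenerateOn (Cfsg.hermForm 8 F q) W ∧ 2 * Module.finrank F W < 8 ∧ H = Cfsg.Geo.subspaceStabilizer W ⊓ (Cfsg.GU 8 F q ⊓ Cfsg.Geo.specialLinear (Fin 8) F)) ∨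
    (∃ D : Fin 8 → Submodule F (Fin 8 → F), Cfsg.Geo.IsNondegenerateMDecomposition (Cfsg.hermForm 8 F q) 1 D ∧ H = Cfsg.Geo.decompositionStabilizer D ⊓ (Cfsg.GU 8 F q ⊓ Cfsg.Geo.specialLinear (Fin 8) F)) ∨
    (3 ≤ q ∧ ∃ D : Fin 4 → Submodule F (Fin 8 → F), Cfsg.Geo.IsNondegenerateMDecomposition (Cfsg.hermForm 8 F q) 2 D ∧ H = Cfsg.Geo.decompositionStabilizer D ⊓ (Cfsg.GU 8 F q ⊓ Cfsg.Geo.specialLinear (Fin 8) F)) ∨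
    (∃ D : Fin 2 → Submodule F (Fin 8 → F), Cfsg.Geo.IsNondegenerateMDecomposition (Cfsg.hermForm 8 F q) 4 D ∧ H = Cfsg.Geo.decompositionStabilizer D ⊓ (Cfsg.GU 8 F q ⊓ Cfsg.Geo.specialLinear (Fin 8) F)) ∨
    (∃ D : Fin 2 → Submodule F (Fin 8 → F), Cfsg.Geo.IsMDecomposition 4 D ∧ (∀ i, Cfsg.Geo.IsTotallySingularFor (Cfsg.hermForm 8 F q) (D i)) ∧ H = Cfsg.Geo.decompositionStabilizer D ⊓ (Cfsg.GU 8 F q ⊓ Cfsg.Geo.specialLinear (Fin 8) F)) ∨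
    (3 ≤ q ∧ ∃ (e : Fin 8 ≃ Fin 2 × Fin 4) (P : Matrix.GeneralLinearGroup (Fin 8) F) (f₁ : (Fin 2 → F) → (Fin 2 → F) → F) (f₂ : (Fin 4 → F) → (Fin 4 → F) → F), Cfsg.Geo.IsUnitaryFormPow q f₁ ∧ Cfsg.Geo.IsUnitaryFormPow q f₂ ∧ Cfsg.Geo.IsTensorFormStructure (fun x : F => x ^ q) (Cfsg.hermForm 8 F q) f₁ f₂ e P ∧ H = Cfsg.Geo.tensorProductSubgroup 2 4 e P ⊓ (Cfsg.GU 8 F q ⊓ Cfsg.Geo.specialLinear (Fin 8) F)) ∨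
    (∃ (F₀ : Subfield F) (r : ℕ) (P : Matrix.GeneralLinearGroup (Fin 8) F), r.Prime ∧ Odd r ∧ Fintype.card F = Nat.card F₀ ^ r ∧ Cfsg.Geo.IsFormRationalStructure (Cfsg.hermForm 8 F q) F₀ 1 P ∧ H = Cfsg.Geo.subfieldSubgroup F₀ P ⊓ (Cfsg.GU 8 F q ⊓ Cfsg.Geo.specialLinear (Fin 8) F)) ∨
    (∃ (F₀ : Subfield F) (P : Matrix.GeneralLinearGroup (Fin 8) F) (ζ : F), Fintype.card F = Nat.card F₀ ^ 2 ∧ ζ ≠ 0 ∧ ζ + ζ ^ q = 0 ∧ Cfsg.Geo.IsFormRationalStructure (Cfsg.hermForm 8 F q) F₀ ζ P ∧ (∀ u : Fin 8 → F, (∀ i, u i ∈ F₀) → (Cfsg.hermForm 8 F q) (Matrix.mulVec (P : Matrix (Fin 8) (Fin 8) F) u) (Matrix.mulVec (P : Matrix (Fin 8) (Fin 8) F) u) = 0) ∧ H = Cfsg.Geo.subfieldSubgroup F₀ P ⊓ (Cfsg.GU 8 F q ⊓ Cfsg.Geo.specialLinear (Fin 8) F)) ∨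
    (Odd q ∧ ∃ (F₀ : Subfield F) (P : Matrix.GeneralLinearGroup (Fin 8) F), Fintype.card F = Nat.card F₀ ^ 2 ∧ Cfsg.Geo.IsFormRationalStructure (Cfsg.hermForm 8 F q) F₀ 1 P ∧ H = Cfsg.Geo.subfieldSubgroup F₀ P ⊓ (Cfsg.GU 8 F q ⊓ Cfsg.Geo.specialLinear (Fin 8) F)) ∨
    (∃ (p : ℕ) (R : Subgroup (Matrix.GeneralLinearGroup (Fin 8) F)), p.Prime ∧ q = p ∧ p % 4 = 3 ∧ Cfsg.Geo.IsSymplecticTypeGroup 2 R ∧ Cfsg.Geo.ActsAbsolutelyIrreducibly (Cfsg.Geo.matrixSet R) ∧ R ≤ Cfsg.Geo.similarityGroup (Cfsg.hermForm 8 F q) ∧ Nat.card R = 256 ∧ Nat.card (Subgroup.center R) = 4 ∧ H = Cfsg.Geo.subgroupNormalizer R ⊓ (Cfsg.GU 8 F q ⊓ Cfsg.Geo.specialLinear (Fin 8) F)) ∨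
    Cfsg.Geo.InUnitaryResidualClass H := by
  rcases Cfsg.Agent.Lib.CmaxU.Master.master hF (by norm_num) (by omega) H hH hA with
    ⟨W, h0, hW, hE⟩ | ⟨W, h0, hW, hlt, hE⟩ | ⟨t, k, D, hD, htk, hk2, hE⟩ | ⟨k, D, hk2, hD, hDs, hE⟩ |
    ⟨F₀, r, P, hr, hro, hc, hrat, hE⟩ | ⟨F₀, P, hodd, hc, hrat, hE⟩ | ⟨F₀, P, ζ, hev, hc, hζ, hζq, hrat, hzero, hE⟩ |
    ⟨r, R, p, e, k, hR, hRA, hRs, hrp, hmin, hrk, halts, hE⟩ | ⟨r, K, hr, hro, hrn, hK, hcl, hE⟩ |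
    ⟨n₁, n₂, e, P, f₁, f₂, hn₁, hn₂, hcn, hq3, hf₁, hf₂, hT, hE⟩ | ⟨k, t, e, P, f₁, hk, ht, hcn, hex, hf₁, hT, hE⟩ | hres
  · exact Or.inl ⟨W, h0, hW, hE⟩
  · exact Or.inr <| Or.inl ⟨W, h0, hW, hlt, hE⟩
  · obtain ⟨rfl, rfl⟩|⟨rfl, rfl⟩|⟨rfl, rfl⟩ := Cfsg.Agent.Lib.CmaxL.Arith.tm8 hD.decomp.two_le hD.decomp.pos htk
    · exact Or.inr <| Or.inr <| Or.inr <| Or.inr <| Or.inl ⟨D, hD, hE⟩
    · exact Or.inr <| Or.inr <| Or.inr <| Or.inl ⟨hk2 rfl (by norm_num), D, hD, hE⟩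
    · exact Or.inr <| Or.inr <| Or.inl ⟨D, hD, hE⟩
  · obtain rfl : k = 4 := by omega
    exact Or.inr <| Or.inr <| Or.inr <| Or.inr <| Or.inr <| Or.inl ⟨D, hD, hDs, hE⟩
  · exact Or.inr <| Or.inr <| Or.inr <| Or.inr <| Or.inr <| Or.inr <| Or.inr <| Or.inl ⟨F₀, r, P, hr, hro, hc, hrat, hE⟩
  · exact Or.inr <| Or.inr <| Or.inr <| Or.inr <| Or.inr <| Or.inr <| Or.inr <| Or.inr <| Or.inr <| Or.inl ⟨hodd, F₀, P, hc, hrat, hE⟩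
  · exact Or.inr <| Or.inr <| Or.inr <| Or.inr <| Or.inr <| Or.inr <| Or.inr <| Or.inr <| Or.inl ⟨F₀, P, ζ, hc, hζ, hζq, hrat, hzero, hE⟩
  · obtain ⟨rfl, rfl⟩ := Cfsg.Agent.Lib.CmaxU.Arith.rk_eight hR.prime hrk
    rcases halts with ⟨hro, -⟩ | ⟨-, he, hZ, hcR⟩
    · exact absurd hro (by decide)
    · rw [hZ] at hmin
      obtain ⟨hp, hqp, hp4⟩ := Cfsg.Agent.Lib.CmaxU.Arith.two_data hF hrp he hmin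
      exact Or.inr <| Or.inr <| Or.inr <| Or.inr <| Or.inr <| Or.inr <| Or.inr <| Or.inr <| Or.inr <| Or.inr <| Or.inl ⟨p, R, hp, hqp, hp4, hR, hRA, hRs, by rw [hcR]; norm_num, hZ, hE⟩
  · obtain rfl := Cfsg.Agent.Lib.CmaxL.Arith.pr8 hr hrn
    exact absurd hro (by decide)
  · obtain ⟨rfl, rfl⟩ := Cfsg.Agent.Lib.CmaxL.Arith.ten8 hn₁ hn₂ hcn
    exact Or.inr <| Or.inr <| Or.inr <| Or.inr <| Or.inr <| Or.inr <| Or.inl ⟨hq3 rfl, e, P, f₁, f₂, hf₁, hf₂, hT, hE⟩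
  · have := Cfsg.Agent.Lib.CmaxL.Arith.pow_lower hk ht
    omega
  · exact Or.inr <| Or.inr <| Or.inr <| Or.inr <| Or.inr <| Or.inr <| Or.inr <| Or.inr <| Or.inr <| Or.inr <| Or.inr <| hres

theorem s5832  {F : Type*} [Field F] [Fintype F] (q : ℕ) (hF : Fintype.card F = q ^ 2) (H : Subgroup (Matrix.GeneralLinearGroup (Fin 9) F)) (hH : Cfsg.Geo.IsMaximalIn (Cfsg.GU 9 F q ⊓ Cfsg.Geo.specialLinear (Fin 9) F) H)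
    (hA : (∃ M, Cfsg.Geo.InUnitaryClass 9 F q M ∧ H ≤ M) ∨ Cfsg.Geo.InUnitaryResidualClass H) :
    (∃ W : Submodule F (Fin 9 → F), W ≠ ⊥ ∧ Cfsg.Geo.IsTotallySingularFor (Cfsg.hermForm 9 F q) W ∧ H = Cfsg.Geo.subspaceStabilizer W ⊓ (Cfsg.GU 9 F q ⊓ Cfsg.Geo.specialLinear (Fin 9) F)) ∨
    (∃ W : Submodule F (Fin 9 → F), W ≠ ⊥ ∧ Cfsg.Geo.IsNondegenerateOn (Cfsg.hermForm 9 F q) W ∧ 2 * Module.finrank F W < 9 ∧ H = Cfsg.Geo.subspaceStabilizer W ⊓ (Cfsg.GU 9 F q ⊓ Cfsg.Geo.specialLinear (Fin 9) F)) ∨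
    (∃ D : Fin 9 → Submodule F (Fin 9 → F), Cfsg.Geo.IsNondegenerateMDecomposition (Cfsg.hermForm 9 F q) 1 D ∧ H = Cfsg.Geo.decompositionStabilizer D ⊓ (Cfsg.GU 9 F q ⊓ Cfsg.Geo.specialLinear (Fin 9) F)) ∨
    (∃ D : Fin 3 → Submodule F (Fin 9 → F), Cfsg.Geo.IsNondegenerateMDecomposition (Cfsg.hermForm 9 F q) 3 D ∧ H = Cfsg.Geo.decompositionStabilizer D ⊓ (Cfsg.GU 9 F q ⊓ Cfsg.Geo.specialLinear (Fin 9) F)) ∨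
    (∃ K : Subalgebra F (Matrix (Fin 9) (Fin 9) F), Cfsg.Geo.IsFieldSubalgebra 3 K ∧ Cfsg.Geo.IsAdjointClosedFor (Cfsg.hermForm 9 F q) K ∧ H = Cfsg.Geo.subalgebraNormalizer K ⊓ (Cfsg.GU 9 F q ⊓ Cfsg.Geo.specialLinear (Fin 9) F)) ∨
    (∃ (F₀ : Subfield F) (r : ℕ) (P : Matrix.GeneralLinearGroup (Fin 9) F), r.Prime ∧ Odd r ∧ Fintype.card F = Nat.card F₀ ^ r ∧ Cfsg.Geo.IsFormRationalStructure (Cfsg.hermForm 9 F q) F₀ 1 P ∧ H = Cfsg.Geo.subfieldSubgroup F₀ P ⊓ (Cfsg.GU 9 F q ⊓ Cfsg.Geo.specialLinear (Fin 9) F)) ∨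
    (Odd q ∧ ∃ (F₀ : Subfield F) (P : Matrix.GeneralLinearGroup (Fin 9) F), Fintype.card F = Nat.card F₀ ^ 2 ∧ Cfsg.Geo.IsFormRationalStructure (Cfsg.hermForm 9 F q) F₀ 1 P ∧ H = Cfsg.Geo.subfieldSubgroup F₀ P ⊓ (Cfsg.GU 9 F q ⊓ Cfsg.Geo.specialLinear (Fin 9) F)) ∨
    (∃ (p : ℕ) (R : Subgroup (Matrix.GeneralLinearGroup (Fin 9) F)), p.Prime ∧ q = p ∧ p % 3 = 2 ∧ Cfsg.Geo.IsSymplecticTypeGroup 3 R ∧ Cfsg.Geo.ActsAbsolutelyIrreducibly (Cfsg.Geo.matrixSet R) ∧ R ≤ Cfsg.Geo.similarityGroup (Cfsg.hermForm 9 F q) ∧ Nat.card R = 243 ∧ Nat.card (Subgroup.center R) = 3 ∧ H = Cfsg.Geo.subgroupNormalizer R ⊓ (Cfsg.GU 9 F q ⊓ Cfsg.Geo.specialLinear (Fin 9) F)) ∨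
    (3 ≤ q ∧ ∃ (e : Fin 9 ≃ (Fin 2 → Fin 3)) (P : Matrix.GeneralLinearGroup (Fin 9) F) (f₁ : (Fin 3 → F) → (Fin 3 → F) → F), Cfsg.Geo.IsUnitaryFormPow q f₁ ∧ Cfsg.Geo.IsTensorPowerFormStructure (fun x : F => x ^ q) (Cfsg.hermForm 9 F q) f₁ e P ∧ H = Cfsg.Geo.tensorWreathSubgroup 3 2 e P ⊓ (Cfsg.GU 9 F q ⊓ Cfsg.Geo.specialLinear (Fin 9) F)) ∨
    Cfsg.Geo.InUnitaryResidualClass H := by
  rcases Cfsg.Agent.Lib.CmaxU.Master.master hF (by norm_num) (by omega) H hH hA with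
    ⟨W, h0, hW, hE⟩ | ⟨W, h0, hW, hlt, hE⟩ | ⟨t, k, D, hD, htk, hk2, hE⟩ | ⟨k, D, hk2, hD, hDs, hE⟩ |
    ⟨F₀, r, P, hr, hro, hc, hrat, hE⟩ | ⟨F₀, P, hodd, hc, hrat, hE⟩ | ⟨F₀, P, ζ, hev, hc, hζ, hζq, hrat, hzero, hE⟩ |
    ⟨r, R, p, e, k, hR, hRA, hRs, hrp, hmin, hrk, halts, hE⟩ | ⟨r, K, hr, hro, hrn, hK, hcl, hE⟩ |
    ⟨n₁, n₂, e, P, f₁, f₂, hn₁, hn₂, hcn, hq3, hf₁, hf₂, hT, hE⟩ | ⟨k, t, e, P, f₁, hk, ht, hcn, hex, hf₁, hT, hE⟩ | hres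
  · exact Or.inl ⟨W, h0, hW, hE⟩
  · exact Or.inr <| Or.inl ⟨W, h0, hW, hlt, hE⟩
  · obtain ⟨rfl, rfl⟩|⟨rfl, rfl⟩ := Cfsg.Agent.Lib.CmaxL.Arith.tm9 hD.decomp.two_le hD.decomp.pos htk
    · exact Or.inr <| Or.inr <| Or.inr <| Or.inl ⟨D, hD, hE⟩
    · exact Or.inr <| Or.inr <| Or.inl ⟨D, hD, hE⟩
  · omega
  · exact Or.inr <| Or.inr <| Or.inr <| Or.inr <| Or.inr <| Or.inl ⟨F₀, r, P, hr, hro, hc, hrat, hE⟩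
  · exact Or.inr <| Or.inr <| Or.inr <| Or.inr <| Or.inr <| Or.inr <| Or.inl ⟨hodd, F₀, P, hc, hrat, hE⟩
  · exact absurd hev (by decide)
  · obtain ⟨rfl, rfl⟩ := Cfsg.Agent.Lib.CmaxU.Arith.rk_nine hR.prime hrk
    rcases halts with ⟨hro, hZ, hk1, hcR⟩ | ⟨h2, -⟩
    · rw [hZ] at hmin
      obtain ⟨d, hp, hcp, hqd, hed, hd0, hp0, hlt, hnd, hpw, hmn⟩ := Cfsg.Agent.Lib.CmaxU.Arith.odd_data hF hR.prime hrp hmin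
      obtain ⟨he, hx⟩ := Cfsg.Agent.Lib.CmaxU.Arith.arith3 (Nat.mod_lt _ (by norm_num)) hp0 hlt ⟨d, by omega⟩ (by omega) hpw hmn
      obtain rfl : d = 1 := by omega
      exact Or.inr <| Or.inr <| Or.inr <| Or.inr <| Or.inr <| Or.inr <| Or.inr <| Or.inl ⟨p, R, hp, by simpa using hqd, hx, hR, hRA, hRs, by rw [hcR]; norm_num, hZ, hE⟩
    · omega
  · obtain rfl := Cfsg.Agent.Lib.CmaxL.Arith.pr9 hr hrn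
    exact Or.inr <| Or.inr <| Or.inr <| Or.inr <| Or.inl ⟨K, hK, hcl, hE⟩
  · exact (Cfsg.Agent.Lib.CmaxL.Arith.ten9 hn₁ hn₂ hcn).elim
  · obtain ⟨rfl, rfl⟩ := Cfsg.Agent.Lib.CmaxL.Arith.pow_eq_nine hk ht hcn
    have hq2 : 2 ≤ q := Cfsg.Agent.Lib.HermCount.Field.two_le hF
    exact Or.inr <| Or.inr <| Or.inr <| Or.inr <| Or.inr <| Or.inr <| Or.inr <| Or.inr <| Or.inl ⟨by omega, e, P, f₁, hf₁, hT, hE⟩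
  · exact Or.inr <| Or.inr <| Or.inr <| Or.inr <| Or.inr <| Or.inr <| Or.inr <| Or.inr <| Or.inr <| hres

theorem s5841  {F : Type*} [Field F] [Fintype F] (q : ℕ) (hF : Fintype.card F = q ^ 2) (H : Subgroup (Matrix.GeneralLinearGroup (Fin 10) F)) (hH : Cfsg.Geo.IsMaximalIn (Cfsg.GU 10 F q ⊓ Cfsg.Geo.specialLinear (Fin 10) F) H)
    (hA : (∃ M, Cfsg.Geo.InUnitaryClass 10 F q M ∧ H ≤ M) ∨ Cfsg.Geo.InUnitaryResidualClass H) :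
    (∃ W : Submodule F (Fin 10 → F), W ≠ ⊥ ∧ Cfsg.Geo.IsTotallySingularFor (Cfsg.hermForm 10 F q) W ∧ H = Cfsg.Geo.subspaceStabilizer W ⊓ (Cfsg.GU 10 F q ⊓ Cfsg.Geo.specialLinear (Fin 10) F)) ∨
    (∃ W : Submodule F (Fin 10 → F), W ≠ ⊥ ∧ Cfsg.Geo.IsNondegenerateOn (Cfsg.hermForm 10 F q) W ∧ 2 * Module.finrank F W < 10 ∧ H = Cfsg.Geo.subspaceStabilizer W ⊓ (Cfsg.GU 10 F q ⊓ Cfsg.Geo.specialLinear (Fin 10) F)) ∨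
    (∃ D : Fin 10 → Submodule F (Fin 10 → F), Cfsg.Geo.IsNondegenerateMDecomposition (Cfsg.hermForm 10 F q) 1 D ∧ H = Cfsg.Geo.decompositionStabilizer D ⊓ (Cfsg.GU 10 F q ⊓ Cfsg.Geo.specialLinear (Fin 10) F)) ∨
    (3 ≤ q ∧ ∃ D : Fin 5 → Submodule F (Fin 10 → F), Cfsg.Geo.IsNondegenerateMDecomposition (Cfsg.hermForm 10 F q) 2 D ∧ H = Cfsg.Geo.decompositionStabilizer D ⊓ (Cfsg.GU 10 F q ⊓ Cfsg.Geo.specialLinear (Fin 10) F)) ∨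
    (∃ D : Fin 2 → Submodule F (Fin 10 → F), Cfsg.Geo.IsNondegenerateMDecomposition (Cfsg.hermForm 10 F q) 5 D ∧ H = Cfsg.Geo.decompositionStabilizer D ⊓ (Cfsg.GU 10 F q ⊓ Cfsg.Geo.specialLinear (Fin 10) F)) ∨
    (∃ D : Fin 2 → Submodule F (Fin 10 → F), Cfsg.Geo.IsMDecomposition 5 D ∧ (∀ i, Cfsg.Geo.IsTotallySingularFor (Cfsg.hermForm 10 F q) (D i)) ∧ H = Cfsg.Geo.decompositionStabilizer D ⊓ (Cfsg.GU 10 F q ⊓ Cfsg.Geo.specialLinear (Fin 10) F)) ∨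
    (∃ K : Subalgebra F (Matrix (Fin 10) (Fin 10) F), Cfsg.Geo.IsFieldSubalgebra 5 K ∧ Cfsg.Geo.IsAdjointClosedFor (Cfsg.hermForm 10 F q) K ∧ H = Cfsg.Geo.subalgebraNormalizer K ⊓ (Cfsg.GU 10 F q ⊓ Cfsg.Geo.specialLinear (Fin 10) F)) ∨
    (3 ≤ q ∧ ∃ (e : Fin 10 ≃ Fin 2 × Fin 5) (P : Matrix.GeneralLinearGroup (Fin 10) F) (f₁ : (Fin 2 → F) → (Fin 2 → F) → F) (f₂ : (Fin 5 → F) → (Fin 5 → F) → F), Cfsg.Geo.IsUnitaryFormPow q f₁ ∧ Cfsg.Geo.IsUnitaryFormPow q f₂ ∧ Cfsg.Geo.IsTensorFormStructure (fun x : F => x ^ q) (Cfsg.hermForm 10 F q) f₁ f₂ e P ∧ H = Cfsg.Geo.tensorProductSubgroup 2 5 e P ⊓ (Cfsg.GU 10 F q ⊓ Cfsg.Geo.specialLinear (Fin 10) F)) ∨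
    (∃ (F₀ : Subfield F) (r : ℕ) (P : Matrix.GeneralLinearGroup (Fin 10) F), r.Prime ∧ Odd r ∧ Fintype.card F = Nat.card F₀ ^ r ∧ Cfsg.Geo.IsFormRationalStructure (Cfsg.hermForm 10 F q) F₀ 1 P ∧ H = Cfsg.Geo.subfieldSubgroup F₀ P ⊓ (Cfsg.GU 10 F q ⊓ Cfsg.Geo.specialLinear (Fin 10) F)) ∨
    (∃ (F₀ : Subfield F) (P : Matrix.GeneralLinearGroup (Fin 10) F) (ζ : F), Fintype.card F = Nat.card F₀ ^ 2 ∧ ζ ≠ 0 ∧ ζ + ζ ^ q = 0 ∧ Cfsg.Geo.IsFormRationalStructure (Cfsg.hermForm 10 F q) F₀ ζ P ∧ (∀ u : Fin 10 → F, (∀ i, u i ∈ F₀) → (Cfsg.hermForm 10 F q) (Matrix.mulVec (P : Matrix (Fin 10) (Fin 10) F) u) (Matrix.mulVec (P : Matrix (Fin 10) (Fin 10) F) u) = 0) ∧ H = Cfsg.Geo.subfieldSubgroup F₀ P ⊓ (Cfsg.GU 10 F q ⊓ Cfsg.Geo.specialLinear (Fin 10) F)) ∨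
    (Odd q ∧ ∃ (F₀ : Subfield F) (P : Matrix.GeneralLinearGroup (Fin 10) F), Fintype.card F = Nat.card F₀ ^ 2 ∧ Cfsg.Geo.IsFormRationalStructure (Cfsg.hermForm 10 F q) F₀ 1 P ∧ H = Cfsg.Geo.subfieldSubgroup F₀ P ⊓ (Cfsg.GU 10 F q ⊓ Cfsg.Geo.specialLinear (Fin 10) F)) ∨
    Cfsg.Geo.InUnitaryResidualClass H := by
  rcases Cfsg.Agent.Lib.CmaxU.Master.master hF (by norm_num) (by omega) H hH hA with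
    ⟨W, h0, hW, hE⟩ | ⟨W, h0, hW, hlt, hE⟩ | ⟨t, k, D, hD, htk, hk2, hE⟩ | ⟨k, D, hk2, hD, hDs, hE⟩ |
    ⟨F₀, r, P, hr, hro, hc, hrat, hE⟩ | ⟨F₀, P, hodd, hc, hrat, hE⟩ | ⟨F₀, P, ζ, hev, hc, hζ, hζq, hrat, hzero, hE⟩ |
    ⟨r, R, p, e, k, hR, hRA, hRs, hrp, hmin, hrk, halts, hE⟩ | ⟨r, K, hr, hro, hrn, hK, hcl, hE⟩ |
    ⟨n₁, n₂, e, P, f₁, f₂, hn₁, hn₂, hcn, hq3, hf₁, hf₂, hT, hE⟩ | ⟨k, t, e, P, f₁, hk, ht, hcn, hex, hf₁, hT, hE⟩ | hres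
  · exact Or.inl ⟨W, h0, hW, hE⟩
  · exact Or.inr <| Or.inl ⟨W, h0, hW, hlt, hE⟩
  · obtain ⟨rfl, rfl⟩|⟨rfl, rfl⟩|⟨rfl, rfl⟩ := Cfsg.Agent.Lib.CmaxL.Arith.tm10 hD.decomp.two_le hD.decomp.pos htk
    · exact Or.inr <| Or.inr <| Or.inr <| Or.inr <| Or.inl ⟨D, hD, hE⟩
    · exact Or.inr <| Or.inr <| Or.inr <| Or.inl ⟨hk2 rfl (by norm_num), D, hD, hE⟩
    · exact Or.inr <| Or.inr <| Or.inl ⟨D, hD, hE⟩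
  · obtain rfl : k = 5 := by omega
    exact Or.inr <| Or.inr <| Or.inr <| Or.inr <| Or.inr <| Or.inl ⟨D, hD, hDs, hE⟩
  · exact Or.inr <| Or.inr <| Or.inr <| Or.inr <| Or.inr <| Or.inr <| Or.inr <| Or.inr <| Or.inl ⟨F₀, r, P, hr, hro, hc, hrat, hE⟩
  · exact Or.inr <| Or.inr <| Or.inr <| Or.inr <| Or.inr <| Or.inr <| Or.inr <| Or.inr <| Or.inr <| Or.inr <| Or.inl ⟨hodd, F₀, P, hc, hrat, hE⟩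
  · exact Or.inr <| Or.inr <| Or.inr <| Or.inr <| Or.inr <| Or.inr <| Or.inr <| Or.inr <| Or.inr <| Or.inl ⟨F₀, P, ζ, hc, hζ, hζq, hrat, hzero, hE⟩
  · exact (Cfsg.Agent.Lib.CmaxU.Arith.rk_ten hR.prime hrk).elim
  · rcases Cfsg.Agent.Lib.CmaxL.Arith.pr10 hr hrn with rfl | rfl
    · exact absurd hro (by decide)
    · exact Or.inr <| Or.inr <| Or.inr <| Or.inr <| Or.inr <| Or.inr <| Or.inl ⟨K, hK, hcl, hE⟩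
  · obtain ⟨rfl, rfl⟩ := Cfsg.Agent.Lib.CmaxL.Arith.ten10 hn₁ hn₂ hcn
    exact Or.inr <| Or.inr <| Or.inr <| Or.inr <| Or.inr <| Or.inr <| Or.inr <| Or.inl ⟨hq3 rfl, e, P, f₁, f₂, hf₁, hf₂, hT, hE⟩
  · exact (Cfsg.Agent.Lib.CmaxL.Arith.pow_ne hk ht (by norm_num) (by norm_num) hcn).elim
  · exact Or.inr <| Or.inr <| Or.inr <| Or.inr <| Or.inr <| Or.inr <| Or.inr <| Or.inr <| Or.inr <| Or.inr <| Or.inr <| hres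

theorem s5856  {F : Type*} [Field F] [Fintype F] (q : ℕ) (hF : Fintype.card F = q ^ 2) (H : Subgroup (Matrix.GeneralLinearGroup (Fin 11) F)) (hH : Cfsg.Geo.IsMaximalIn (Cfsg.GU 11 F q ⊓ Cfsg.Geo.specialLinear (Fin 11) F) H)
    (hA : (∃ M, Cfsg.Geo.InUnitaryClass 11 F q M ∧ H ≤ M) ∨ Cfsg.Geo.InUnitaryResidualClass H) :
    (∃ W : Submodule F (Fin 11 → F), W ≠ ⊥ ∧ Cfsg.Geo.IsTotallySingularFor (Cfsg.hermForm 11 F q) W ∧ H = Cfsg.Geo.subspaceStabilizer W ⊓ (Cfsg.GU 11 F q ⊓ Cfsg.Geo.specialLinear (Fin 11) F)) ∨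
    (∃ W : Submodule F (Fin 11 → F), W ≠ ⊥ ∧ Cfsg.Geo.IsNondegenerateOn (Cfsg.hermForm 11 F q) W ∧ 2 * Module.finrank F W < 11 ∧ H = Cfsg.Geo.subspaceStabilizer W ⊓ (Cfsg.GU 11 F q ⊓ Cfsg.Geo.specialLinear (Fin 11) F)) ∨
    (∃ D : Fin 11 → Submodule F (Fin 11 → F), Cfsg.Geo.IsNondegenerateMDecomposition (Cfsg.hermForm 11 F q) 1 D ∧ H = Cfsg.Geo.decompositionStabilizer D ⊓ (Cfsg.GU 11 F q ⊓ Cfsg.Geo.specialLinear (Fin 11) F)) ∨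
    (∃ K : Subalgebra F (Matrix (Fin 11) (Fin 11) F), Cfsg.Geo.IsFieldSubalgebra 11 K ∧ Cfsg.Geo.IsAdjointClosedFor (Cfsg.hermForm 11 F q) K ∧ H = Cfsg.Geo.subalgebraNormalizer K ⊓ (Cfsg.GU 11 F q ⊓ Cfsg.Geo.specialLinear (Fin 11) F)) ∨
    (∃ (F₀ : Subfield F) (r : ℕ) (P : Matrix.GeneralLinearGroup (Fin 11) F), r.Prime ∧ Odd r ∧ Fintype.card F = Nat.card F₀ ^ r ∧ Cfsg.Geo.IsFormRationalStructure (Cfsg.hermForm 11 F q) F₀ 1 P ∧ H = Cfsg.Geo.subfieldSubgroup F₀ P ⊓ (Cfsg.GU 11 F q ⊓ Cfsg.Geo.specialLinear (Fin 11) F)) ∨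
    (Odd q ∧ ∃ (F₀ : Subfield F) (P : Matrix.GeneralLinearGroup (Fin 11) F), Fintype.card F = Nat.card F₀ ^ 2 ∧ Cfsg.Geo.IsFormRationalStructure (Cfsg.hermForm 11 F q) F₀ 1 P ∧ H = Cfsg.Geo.subfieldSubgroup F₀ P ⊓ (Cfsg.GU 11 F q ⊓ Cfsg.Geo.specialLinear (Fin 11) F)) ∨
    (∃ (p : ℕ) (R : Subgroup (Matrix.GeneralLinearGroup (Fin 11) F)), p.Prime ∧ CharP F p ∧ ((q = p ∧ p % 11 = 10) ∨ (q = p ^ 5 ∧ (p % 11 = 2 ∨ p % 11 = 6 ∨ p % 11 = 7 ∨ p % 11 = 8))) ∧ Cfsg.Geo.IsSymplecticTypeGroup 11 R ∧ Cfsg.Geo.ActsAbsolutelyIrreducibly (Cfsg.Geo.matrixSet R) ∧ R ≤ Cfsg.GU 11 F q ∧ Nat.card R = 1331 ∧ Nat.card (Subgroup.center R) = 11 ∧ H = Cfsg.Geo.subgroupNormalizer R ⊓ (Cfsg.GU 11 F q ⊓ Cfsg.Geo.specialLinear (Fin 11) F)) ∨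
    Cfsg.Geo.InUnitaryResidualClass H := by
  rcases Cfsg.Agent.Lib.CmaxU.Master.master hF (by norm_num) (by omega) H hH hA with
    ⟨W, h0, hW, hE⟩ | ⟨W, h0, hW, hlt, hE⟩ | ⟨t, k, D, hD, htk, hk2, hE⟩ | ⟨k, D, hk2, hD, hDs, hE⟩ |
    ⟨F₀, r, P, hr, hro, hc, hrat, hE⟩ | ⟨F₀, P, hodd, hc, hrat, hE⟩ | ⟨F₀, P, ζ, hev, hc, hζ, hζq, hrat, hzero, hE⟩ |
    ⟨r, R, p, e, k, hR, hRA, hRs, hrp, hmin, hrk, halts, hE⟩ | ⟨r, K, hr, hro, hrn, hK, hcl, hE⟩ |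
    ⟨n₁, n₂, e, P, f₁, f₂, hn₁, hn₂, hcn, hq3, hf₁, hf₂, hT, hE⟩ | ⟨k, t, e, P, f₁, hk, ht, hcn, hex, hf₁, hT, hE⟩ | hres
  · exact Or.inl ⟨W, h0, hW, hE⟩
  · exact Or.inr <| Or.inl ⟨W, h0, hW, hlt, hE⟩
  · obtain ⟨rfl, rfl⟩ := Cfsg.Agent.Lib.CmaxL.Arith.tm11 hD.decomp.two_le hD.decomp.pos htk
    exact Or.inr <| Or.inr <| Or.inl ⟨D, hD, hE⟩
  · omega
  · exact Or.inr <| Or.inr <| Or.inr <| Or.inr <| Or.inl ⟨F₀, r, P, hr, hro, hc, hrat, hE⟩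
  · exact Or.inr <| Or.inr <| Or.inr <| Or.inr <| Or.inr <| Or.inl ⟨hodd, F₀, P, hc, hrat, hE⟩
  · exact absurd hev (by decide)
  · obtain ⟨rfl, rfl⟩ := Cfsg.Agent.Lib.CmaxU.Arith.rk_prime (by norm_num) hR.prime hrk
    rcases halts with ⟨hro, hZ, hk1, hcR⟩ | ⟨h2, -⟩
    · rw [hZ] at hmin
      obtain ⟨d, hp, hcp, hqd, hed, hd0, hp0, hlt, hnd, hpw, hmn⟩ := Cfsg.Agent.Lib.CmaxU.Arith.odd_data hF hR.prime hrp hmin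
      rcases Cfsg.Agent.Lib.CmaxU.Arith.arith11 (Nat.mod_lt _ (by norm_num)) hp0 hlt ⟨d, by omega⟩ (by omega) hpw hmn with ⟨he, hx⟩ | ⟨he, hx⟩
      · obtain rfl : d = 1 := by omega
        exact Or.inr <| Or.inr <| Or.inr <| Or.inr <| Or.inr <| Or.inr <| Or.inl ⟨p, R, hp, hcp, Or.inl ⟨by simpa using hqd, hx⟩, hR, hRA, Cfsg.Agent.Lib.CmaxU.Arith.le_GU hF (by norm_num) hR.prime hnd hR.pGroup hRs, by rw [hcR]; norm_num, hZ, hE⟩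
      · obtain rfl : d = 5 := by omega
        exact Or.inr <| Or.inr <| Or.inr <| Or.inr <| Or.inr <| Or.inr <| Or.inl ⟨p, R, hp, hcp, Or.inr ⟨hqd, hx⟩, hR, hRA, Cfsg.Agent.Lib.CmaxU.Arith.le_GU hF (by norm_num) hR.prime hnd hR.pGroup hRs, by rw [hcR]; norm_num, hZ, hE⟩
    · omega
  · obtain rfl := Cfsg.Agent.Lib.CmaxL.Arith.pr11 hr hrn
    exact Or.inr <| Or.inr <| Or.inr <| Or.inl ⟨K, hK, hcl, hE⟩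
  · exact (Cfsg.Agent.Lib.CmaxL.Arith.ten11 hn₁ hn₂ hcn).elim
  · exact (Cfsg.Agent.Lib.CmaxL.Arith.pow_ne hk ht (by norm_num) (by norm_num) hcn).elim
  · exact Or.inr <| Or.inr <| Or.inr <| Or.inr <| Or.inr <| Or.inr <| Or.inr <| hres

theorem s5865  {F : Type*} [Field F] [Fintype F] (q : ℕ) (hF : Fintype.card F = q ^ 2) (H : Subgroup (Matrix.GeneralLinearGroup (Fin 12) F)) (hH : Cfsg.Geo.IsMaximalIn (Cfsg.GU 12 F q ⊓ Cfsg.Geo.specialLinear (Fin 12) F) H)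
    (hA : (∃ M, Cfsg.Geo.InUnitaryClass 12 F q M ∧ H ≤ M) ∨ Cfsg.Geo.InUnitaryResidualClass H) :
    (∃ W : Submodule F (Fin 12 → F), W ≠ ⊥ ∧ Cfsg.Geo.IsTotallySingularFor (Cfsg.hermForm 12 F q) W ∧ H = Cfsg.Geo.subspaceStabilizer W ⊓ (Cfsg.GU 12 F q ⊓ Cfsg.Geo.specialLinear (Fin 12) F)) ∨
    (∃ W : Submodule F (Fin 12 → F), W ≠ ⊥ ∧ Cfsg.Geo.IsNondegenerateOn (Cfsg.hermForm 12 F q) W ∧ 2 * Module.finrank F W < 12 ∧ H = Cfsg.Geo.subspaceStabilizer W ⊓ (Cfsg.GU 12 F q ⊓ Cfsg.Geo.specialLinear (Fin 12) F)) ∨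
    (∃ D : Fin 12 → Submodule F (Fin 12 → F), Cfsg.Geo.IsNondegenerateMDecomposition (Cfsg.hermForm 12 F q) 1 D ∧ H = Cfsg.Geo.decompositionStabilizer D ⊓ (Cfsg.GU 12 F q ⊓ Cfsg.Geo.specialLinear (Fin 12) F)) ∨
    (3 ≤ q ∧ ∃ D : Fin 6 → Submodule F (Fin 12 → F), Cfsg.Geo.IsNondegenerateMDecomposition (Cfsg.hermForm 12 F q) 2 D ∧ H = Cfsg.Geo.decompositionStabilizer D ⊓ (Cfsg.GU 12 F q ⊓ Cfsg.Geo.specialLinear (Fin 12) F)) ∨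
    (∃ D : Fin 4 → Submodule F (Fin 12 → F), Cfsg.Geo.IsNondegenerateMDecomposition (Cfsg.hermForm 12 F q) 3 D ∧ H = Cfsg.Geo.decompositionStabilizer D ⊓ (Cfsg.GU 12 F q ⊓ Cfsg.Geo.specialLinear (Fin 12) F)) ∨
    (∃ D : Fin 3 → Submodule F (Fin 12 → F), Cfsg.Geo.IsNondegenerateMDecomposition (Cfsg.hermForm 12 F q) 4 D ∧ H = Cfsg.Geo.decompositionStabilizer D ⊓ (Cfsg.GU 12 F q ⊓ Cfsg.Geo.specialLinear (Fin 12) F)) ∨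
    (∃ D : Fin 2 → Submodule F (Fin 12 → F), Cfsg.Geo.IsNondegenerateMDecomposition (Cfsg.hermForm 12 F q) 6 D ∧ H = Cfsg.Geo.decompositionStabilizer D ⊓ (Cfsg.GU 12 F q ⊓ Cfsg.Geo.specialLinear (Fin 12) F)) ∨
    (∃ D : Fin 2 → Submodule F (Fin 12 → F), Cfsg.Geo.IsMDecomposition 6 D ∧ (∀ i, Cfsg.Geo.IsTotallySingularFor (Cfsg.hermForm 12 F q) (D i)) ∧ H = Cfsg.Geo.decompositionStabilizer D ⊓ (Cfsg.GU 12 F q ⊓ Cfsg.Geo.specialLinear (Fin 12) F)) ∨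
    (∃ K : Subalgebra F (Matrix (Fin 12) (Fin 12) F), Cfsg.Geo.IsFieldSubalgebra 3 K ∧ Cfsg.Geo.IsAdjointClosedFor (Cfsg.hermForm 12 F q) K ∧ H = Cfsg.Geo.subalgebraNormalizer K ⊓ (Cfsg.GU 12 F q ⊓ Cfsg.Geo.specialLinear (Fin 12) F)) ∨
    (3 ≤ q ∧ ∃ (e : Fin 12 ≃ Fin 2 × Fin 6) (P : Matrix.GeneralLinearGroup (Fin 12) F) (f₁ : (Fin 2 → F) → (Fin 2 → F) → F) (f₂ : (Fin 6 → F) → (Fin 6 → F) → F), Cfsg.Geo.IsUnitaryFormPow q f₁ ∧ Cfsg.Geo.IsUnitaryFormPow q f₂ ∧ Cfsg.Geo.IsTensorFormStructure (fun x : F => x ^ q) (Cfsg.hermForm 12 F q) f₁ f₂ e P ∧ H = Cfsg.Geo.tensorProductSubgroup 2 6 e P ⊓ (Cfsg.GU 12 F q ⊓ Cfsg.Geo.specialLinear (Fin 12) F)) ∨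
    (∃ (e : Fin 12 ≃ Fin 3 × Fin 4) (P : Matrix.GeneralLinearGroup (Fin 12) F) (f₁ : (Fin 3 → F) → (Fin 3 → F) → F) (f₂ : (Fin 4 → F) → (Fin 4 → F) → F), Cfsg.Geo.IsUnitaryFormPow q f₁ ∧ Cfsg.Geo.IsUnitaryFormPow q f₂ ∧ Cfsg.Geo.IsTensorFormStructure (fun x : F => x ^ q) (Cfsg.hermForm 12 F q) f₁ f₂ e P ∧ H = Cfsg.Geo.tensorProductSubgroup 3 4 e P ⊓ (Cfsg.GU 12 F q ⊓ Cfsg.Geo.specialLinear (Fin 12) F)) ∨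
    (∃ (F₀ : Subfield F) (r : ℕ) (P : Matrix.GeneralLinearGroup (Fin 12) F), r.Prime ∧ Odd r ∧ Fintype.card F = Nat.card F₀ ^ r ∧ Cfsg.Geo.IsFormRationalStructure (Cfsg.hermForm 12 F q) F₀ 1 P ∧ H = Cfsg.Geo.subfieldSubgroup F₀ P ⊓ (Cfsg.GU 12 F q ⊓ Cfsg.Geo.specialLinear (Fin 12) F)) ∨
    (∃ (F₀ : Subfield F) (P : Matrix.GeneralLinearGroup (Fin 12) F) (ζ : F), Fintype.card F = Nat.card F₀ ^ 2 ∧ ζ ≠ 0 ∧ ζ + ζ ^ q = 0 ∧ Cfsg.Geo.IsFormRationalStructure (Cfsg.hermForm 12 F q) F₀ ζ P ∧ (∀ u : Fin 12 → F, (∀ i, u i ∈ F₀) → (Cfsg.hermForm 12 F q) (Matrix.mulVec (P : Matrix (Fin 12) (Fin 12) F) u) (Matrix.mulVec (P : Matrix (Fin 12) (Fin 12) F) u) = 0) ∧ H = Cfsg.Geo.subfieldSubgroup F₀ P ⊓ (Cfsg.GU 12 F q ⊓ Cfsg.Geo.specialLinear (Fin 12) F)) ∨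
    (Odd q ∧ ∃ (F₀ : Subfield F) (P : Matrix.GeneralLinearGroup (Fin 12) F), Fintype.card F = Nat.card F₀ ^ 2 ∧ Cfsg.Geo.IsFormRationalStructure (Cfsg.hermForm 12 F q) F₀ 1 P ∧ H = Cfsg.Geo.subfieldSubgroup F₀ P ⊓ (Cfsg.GU 12 F q ⊓ Cfsg.Geo.specialLinear (Fin 12) F)) ∨
    Cfsg.Geo.InUnitaryResidualClass H := by
  rcases Cfsg.Agent.Lib.CmaxU.Master.master hF (by norm_num) (by omega) H hH hA with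
    ⟨W, h0, hW, hE⟩ | ⟨W, h0, hW, hlt, hE⟩ | ⟨t, k, D, hD, htk, hk2, hE⟩ | ⟨k, D, hk2, hD, hDs, hE⟩ |
    ⟨F₀, r, P, hr, hro, hc, hrat, hE⟩ | ⟨F₀, P, hodd, hc, hrat, hE⟩ | ⟨F₀, P, ζ, hev, hc, hζ, hζq, hrat, hzero, hE⟩ |
    ⟨r, R, p, e, k, hR, hRA, hRs, hrp, hmin, hrk, halts, hE⟩ | ⟨r, K, hr, hro, hrn, hK, hcl, hE⟩ |
    ⟨n₁, n₂, e, P, f₁, f₂, hn₁, hn₂, hcn, hq3, hf₁, hf₂, hT, hE⟩ | ⟨k, t, e, P, f₁, hk, ht, hcn, hex, hf₁, hT, hE⟩ | hres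
  · exact Or.inl ⟨W, h0, hW, hE⟩
  · exact Or.inr <| Or.inl ⟨W, h0, hW, hlt, hE⟩
  · obtain ⟨rfl, rfl⟩|⟨rfl, rfl⟩|⟨rfl, rfl⟩|⟨rfl, rfl⟩|⟨rfl, rfl⟩ := Cfsg.Agent.Lib.CmaxL.Arith.tm12 hD.decomp.two_le hD.decomp.pos htk
    · exact Or.inr <| Or.inr <| Or.inr <| Or.inr <| Or.inr <| Or.inr <| Or.inl ⟨D, hD, hE⟩
    · exact Or.inr <| Or.inr <| Or.inr <| Or.inr <| Or.inr <| Or.inl ⟨D, hD, hE⟩
    · exact Or.inr <| Or.inr <| Or.inr <| Or.inr <| Or.inl ⟨D, hD, hE⟩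
    · exact Or.inr <| Or.inr <| Or.inr <| Or.inl ⟨hk2 rfl (by norm_num), D, hD, hE⟩
    · exact Or.inr <| Or.inr <| Or.inl ⟨D, hD, hE⟩
  · obtain rfl : k = 6 := by omega
    exact Or.inr <| Or.inr <| Or.inr <| Or.inr <| Or.inr <| Or.inr <| Or.inr <| Or.inl ⟨D, hD, hDs, hE⟩
  · exact Or.inr <| Or.inr <| Or.inr <| Or.inr <| Or.inr <| Or.inr <| Or.inr <| Or.inr <| Or.inr <| Or.inr <| Or.inr <| Or.inl ⟨F₀, r, P, hr, hro, hc, hrat, hE⟩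
  · exact Or.inr <| Or.inr <| Or.inr <| Or.inr <| Or.inr <| Or.inr <| Or.inr <| Or.inr <| Or.inr <| Or.inr <| Or.inr <| Or.inr <| Or.inr <| Or.inl ⟨hodd, F₀, P, hc, hrat, hE⟩
  · exact Or.inr <| Or.inr <| Or.inr <| Or.inr <| Or.inr <| Or.inr <| Or.inr <| Or.inr <| Or.inr <| Or.inr <| Or.inr <| Or.inr <| Or.inl ⟨F₀, P, ζ, hc, hζ, hζq, hrat, hzero, hE⟩
  · exact (Cfsg.Agent.Lib.CmaxU.Arith.rk_twelve hR.prime hrk).elim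
  · rcases Cfsg.Agent.Lib.CmaxL.Arith.pr12 hr hrn with rfl | rfl
    · exact absurd hro (by decide)
    · exact Or.inr <| Or.inr <| Or.inr <| Or.inr <| Or.inr <| Or.inr <| Or.inr <| Or.inr <| Or.inl ⟨K, hK, hcl, hE⟩
  · rcases Cfsg.Agent.Lib.CmaxL.Arith.ten12 hn₁ hn₂ hcn with ⟨rfl, rfl⟩ | ⟨rfl, rfl⟩
    · exact Or.inr <| Or.inr <| Or.inr <| Or.inr <| Or.inr <| Or.inr <| Or.inr <| Or.inr <| Or.inr <| Or.inl ⟨hq3 rfl, e, P, f₁, f₂, hf₁, hf₂, hT, hE⟩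
    · exact Or.inr <| Or.inr <| Or.inr <| Or.inr <| Or.inr <| Or.inr <| Or.inr <| Or.inr <| Or.inr <| Or.inr <| Or.inl ⟨e, P, f₁, f₂, hf₁, hf₂, hT, hE⟩
  · exact (Cfsg.Agent.Lib.CmaxL.Arith.pow_ne hk ht (by norm_num) (by norm_num) hcn).elim
  · exact Or.inr <| Or.inr <| Or.inr <| Or.inr <| Or.inr <| Or.inr <| Or.inr <| Or.inr <| Or.inr <| Or.inr <| Or.inr <| Or.inr <| Or.inr <| Or.inr <| hres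

end Cfsg.Agent.Lib.CmaxU.Rows
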